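import Mathlib
import Cfsg.Agent.Lib.ClassSize.Basic
import Cfsg.Agent.Lib.ClassSize.Coprime
import Cfsg.Agent.Lib.ClassSize.TwoSize
import Cfsg.Agent.Lib.Basic.JordanCover
import Cfsg.Agent.Lib.Basic.SylowUtil
import Cfsg.Agent.Lib.Basic.ProductCard
import Cfsg.Agent.Lib.Nilpotent.Parts
import Cfsg.Agent.Lib.Nilpotent.Elements

/-!
# Groups with class sizes `1, m, m n`, `gcd(m, n) = 1`: basic tools
-/

set_option autoImplicit false

namespace Cfsg.Agent.Lib.Nilpotent.OneMMN

open Subgroup Cfsg.Agent.Lib.ClassSize.Basic Cfsg.Agent.Lib.ClassSize.Coprime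

universe u

/-- `x` has `p`-power order. -/
def El {G : Type u} [Group G] (p : ℕ) (x : G) : Prop := ∃ e : ℕ, orderOf x = p ^ e

/-- The hypothesis: class sizes are `1`, `m`, `m n`, coprime. -/
structure Hyp (G : Type u) [Group G] (m n : ℕ) : Prop where
  hm : 1 < m
  hn : 1 < n
  cop : m.Coprime n
  size : ∀ x : G, cs x = 1 ∨ cs x = m ∨ cs x = m * n
  exm : ∃ x : G, cs x = m
  exmn : ∃ x : G, cs x = m * n

variable {G : Type u} [Group G] [Finite G]

theorem El.coprime {p q : ℕ} (hp : p.Prime) (hq : q.Prime) (hpq : p ≠ q) {x y : G} (hx : El p x)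
    (hy : El q y) : Nat.Coprime (orderOf x) (orderOf y) := by
  obtain ⟨a, ha⟩ := hx
  obtain ⟨b, hb⟩ := hy
  rw [ha, hb]
  exact Nat.Coprime.pow _ _ ((Nat.coprime_primes hp hq).2 hpq)

theorem El.isPGroup {p : ℕ} {x : G} (hx : El p x) : IsPGroup p (zpowers x) := by
  obtain ⟨a, ha⟩ := hx
  apply IsPGroup.of_card (n := a)
  rw [Nat.card_zpowers, ha]

theorem El.of_mem {p : ℕ} [Fact p.Prime] {T : Subgroup G} (hT : IsPGroup p T) {x : G} (hx : x ∈ T) :
    El p x := by
  obtain ⟨k, hk⟩ := (IsPGroup.iff_orderOf.mp hT) ⟨x, hx⟩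
  exact ⟨k, by rw [← hk]; exact (Subgroup.orderOf_mk x hx).symm⟩

theorem El.pow {p : ℕ} (hp : p.Prime) {x : G} (hx : El p x) (k : ℕ) : El p (x ^ k) := by
  obtain ⟨a, ha⟩ := hx
  have h1 : orderOf (x ^ k) ∣ p ^ a := by
    rw [← ha]
    exact orderOf_pow_dvd k
  obtain ⟨j, -, hj⟩ := (Nat.dvd_prime_pow hp).1 h1
  exact ⟨j, hj⟩

theorem El.conj {p : ℕ} {x : G} (hx : El p x) (g : G) : El p (g * x * g⁻¹) := by
  obtain ⟨a, ha⟩ := hx
  refine ⟨a, ?_⟩
  rw [← ha]
  exact (MulAut.conj g).orderOf_eq x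

namespace Hyp

variable {m n : ℕ} (H : Hyp G m n)
include H

theorem m_lt_mn : m < m * n := by
  have := H.hm
  have := H.hn
  nlinarith

theorem cs_noncentral {x : G} (hx : x ∉ center G) : cs x = m ∨ cs x = m * n := by
  rcases H.size x with h | h
  · exact absurd (index_cent_eq_one_iff.1 h) hx
  · exact h

theorem not_center_of_m {x : G} (hx : cs x = m) : x ∉ center G := by
  intro h
  have h1 : cs x = 1 := index_cent_eq_one_iff.2 h
  have := H.hm
  omega

theorem not_center_of_mn {x : G} (hx : cs x = m * n) : x ∉ center G := by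
  intro h
  have h1 : cs x = 1 := index_cent_eq_one_iff.2 h
  have := H.hm
  have := H.m_lt_mn
  omega

/-- If `cent a ≤ cent b`, `a` of size `m`, `b` noncentral: the centralizers agree. -/
theorem cent_eq_of_le {a b : G} (ha : cs a = m) (hb : b ∉ center G) (hle : cent a ≤ cent b) :
    cent a = cent b := by
  apply eq_of_le_of_index_eq hle
  have hd : cs b ∣ cs a := Subgroup.index_dvd_of_le hle
  rw [ha] at hd
  rcases H.cs_noncentral hb with h | h
  · exact ha.trans h.symm
  · exfalso
    rw [h] at hd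
    have := Nat.le_of_dvd (by have := H.hm; omega) hd
    have := H.m_lt_mn
    omega

/-- Sizes after shrinking the centralizer. -/
theorem cs_eq_m_of_le {a b : G} (ha : cs a = m) (hb : b ∉ center G) (hle : cent a ≤ cent b) :
    cs b = m := by
  have := H.cent_eq_of_le ha hb hle
  show (cent b).index = m
  rw [← this]
  exact ha

/-- Coprime multiplication by an element of the centralizer of a big-class element. -/
theorem cent_le_of_mn {x b : G} (hx : cs x = m * n) (hb : b ∈ cent x)
    (hc : Nat.Coprime (orderOf x) (orderOf b)) : cent x ≤ cent b := by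
  have h1 : cent (x * b) = cent x ⊓ cent b := cent_mul_eq_inf (mem_cent_iff.1 hb) hc
  have h2 : cent (x * b) ≤ cent x := by rw [h1]; exact inf_le_left
  have h3 : m * n ∣ cs (x * b) := by
    rw [← hx]
    exact Subgroup.index_dvd_of_le h2
  have h4 : cs (x * b) = m * n := by
    have hpos : 0 < m * n := by have := H.hm; have := H.hn; positivity
    rcases H.size (x * b) with h | h | h
    · rw [h] at h3
      have := Nat.le_of_dvd one_pos h3
      have := H.m_lt_mn
      have := H.hm
      omega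
    · rw [h] at h3
      have := Nat.le_of_dvd (by have := H.hm; omega) h3
      have := H.m_lt_mn
      omega
    · exact h
  have h5 : cent (x * b) = cent x := eq_of_le_of_index_eq h2 (h4.trans hx.symm)
  rw [← h5, h1]
  exact inf_le_right

/-- The key dichotomy for an element of size `m`. -/
theorem inf_index {y w : G} (hy : cs y = m) (hw : w ∈ cent y)
    (hc : Nat.Coprime (orderOf y) (orderOf w)) :
    cent y ≤ cent w ∨ (cent y ⊓ cent w).index = m * n := by
  have h1 : cent (y * w) = cent y ⊓ cent w := cent_mul_eq_inf (mem_cent_iff.1 hw) hc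
  have h2 : cent (y * w) ≤ cent y := by rw [h1]; exact inf_le_left
  have h3 : m ∣ cs (y * w) := by
    rw [← hy]
    exact Subgroup.index_dvd_of_le h2
  rcases H.size (y * w) with h | h | h
  · rw [h] at h3
    have := Nat.le_of_dvd one_pos h3
    have := H.hm
    omega
  · left
    have h5 : cent (y * w) = cent y := eq_of_le_of_index_eq h2 (h.trans hy.symm)
    rw [← h5, h1]
    exact inf_le_right
  · right
    rw [← h1]
    exact h

end Hyp

/-! ### `p`-parts of subgroup orders -/

section Syl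

variable {p : ℕ} [hp : Fact p.Prime]

theorem card_sylow (P : Sylow p G) : Nat.card P = ordProj[p] (Nat.card G) :=
  Sylow.card_eq_multiplicity P

theorem ordProj_card_mul_index (K : Subgroup G) :
    ordProj[p] (Nat.card K) * ordProj[p] K.index = ordProj[p] (Nat.card G) := by
  rw [← Nat.ordProj_mul p Nat.card_pos.ne' Subgroup.index_ne_zero_of_finite, K.card_mul_index]

theorem card_dvd_ordProj {K T : Subgroup G} (hTK : T ≤ K) (hT : IsPGroup p T) :
    Nat.card T ∣ ordProj[p] (Nat.card K) := by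
  obtain ⟨k, hk⟩ := IsPGroup.iff_card.1 hT
  rw [hk]
  have h1 : p ^ k ∣ Nat.card K := hk ▸ Subgroup.card_dvd_of_le hTK
  exact pow_dvd_pow _ ((hp.out.pow_dvd_iff_le_factorization Nat.card_pos.ne').1 h1)

/-- Every `p`-subgroup of `K` lies in a subgroup of `K` of the full `p`-part order. -/
theorem exists_sylIn (K T : Subgroup G) (hTK : T ≤ K) (hT : IsPGroup p T) :
    ∃ S : Subgroup G, T ≤ S ∧ S ≤ K ∧ IsPGroup p S ∧ Nat.card S = ordProj[p] (Nat.card K) := by
  have hT' : IsPGroup p (T.subgroupOf K) := hT.comap_subtype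
  obtain ⟨Q, hQ⟩ := hT'.exists_le_sylow
  refine ⟨(Q : Subgroup K).map K.subtype, ?_, ?_, Q.2.map _, ?_⟩
  · intro t ht
    exact ⟨⟨t, hTK ht⟩, hQ (by simpa [Subgroup.mem_subgroupOf] using ht), rfl⟩
  · rintro _ ⟨a, _, rfl⟩
    exact a.2
  · rw [Nat.card_congr ((Q : Subgroup K).equivMapOfInjective K.subtype K.subtype_injective).toEquiv.symm]
    exact card_sylow Q

/-- A `p`-subgroup of order bigger than the `p`-part of `|Z₀|` is not in `Z₀`. -/
theorem exists_notMem_of_card_gt {Z₀ S : Subgroup G} (hS : IsPGroup p S)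
    (h : ordProj[p] (Nat.card Z₀) < Nat.card S) : ∃ c ∈ S, c ∉ Z₀ := by
  by_contra hno
  push Not at hno
  have h1 := card_dvd_ordProj (show S ≤ Z₀ from hno) hS
  have h2 := Nat.le_of_dvd (Nat.ordProj_pos _ _) h1
  omega

/-- Conjugates of a subgroup. -/
def conjS (x : G) (S : Subgroup G) : Subgroup G := S.map (MulAut.conj x).toMonoidHom

omit [Finite G] in
theorem mem_conjS {x : G} {S : Subgroup G} {a : G} : a ∈ conjS x S ↔ x⁻¹ * a * x ∈ S := by
  constructor
  · rintro ⟨b, hb, rfl⟩
    simpa [MulAut.conj_apply, mul_assoc] using hb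
  · intro h
    exact ⟨_, h, by simp [MulAut.conj_apply, mul_assoc]⟩

omit [Finite G] in
theorem conj_mem_conjS {x : G} {S : Subgroup G} {a : G} (ha : a ∈ S) : x * a * x⁻¹ ∈ conjS x S :=
  ⟨a, ha, rfl⟩

omit [Finite G] in
theorem card_conjS (x : G) (S : Subgroup G) : Nat.card (conjS x S) = Nat.card S :=
  (Nat.card_congr (S.equivMapOfInjective _ (MulAut.conj x).injective).toEquiv).symm

omit [Finite G] in
theorem isPGroup_conjS {x : G} {S : Subgroup G} (hS : IsPGroup p S) : IsPGroup p (conjS x S) :=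
  hS.map _

omit [Finite G] in
theorem cent_conj (x a : G) : cent (x * a * x⁻¹) = conjS x (cent a) := by
  ext b
  rw [conj_mem_cent_iff, mem_conjS]

omit [Finite G] in
theorem conjS_le {x : G} {S T : Subgroup G} (h : S ≤ T) : conjS x S ≤ conjS x T :=
  Subgroup.map_mono h

omit [Finite G] in
theorem conjS_inv_conjS (x : G) (S : Subgroup G) : conjS x⁻¹ (conjS x S) = S := by
  ext a
  rw [mem_conjS, mem_conjS]
  simp [mul_assoc]

omit [Finite G] in
theorem conjS_conjS_inv (x : G) (S : Subgroup G) : conjS x (conjS x⁻¹ S) = S := by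
  have := conjS_inv_conjS x⁻¹ S
  simpa using this

/-- Two subgroups which are Sylow are conjugate. -/
theorem exists_conjS_eq (P Q : Sylow p G) : ∃ x : G, conjS x (P : Subgroup G) = Q := by
  obtain ⟨g, hg⟩ := Cfsg.Agent.Lib.Basic.SylowUtil.exists_conj_smul_eq P Q
  refine ⟨g, ?_⟩
  rw [← hg]
  rfl

/-- A `p`-subgroup of `G` is conjugate into a given Sylow subgroup. -/
theorem exists_conjS_le {T : Subgroup G} (hT : IsPGroup p T) (Q : Sylow p G) :
    ∃ x : G, conjS x T ≤ Q := by
  obtain ⟨P, hP⟩ := hT.exists_le_sylow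
  obtain ⟨x, hx⟩ := exists_conjS_eq P Q
  exact ⟨x, hx ▸ conjS_le hP⟩

end Syl

namespace Hyp

variable {m n : ℕ} (H : Hyp G m n)
include H

/-- If `p` divides `m`, then `p` does not divide `n`. -/
theorem not_dvd_n {p : ℕ} (hp : p.Prime) (hpm : p ∣ m) : ¬ p ∣ n := fun hpn =>
  hp.one_lt.ne' (Nat.eq_one_of_dvd_coprimes H.cop hpm hpn)

theorem not_dvd_m {p : ℕ} (hp : p.Prime) (hpn : p ∣ n) : ¬ p ∣ m := fun hpm =>
  H.not_dvd_n hp hpm hpn

theorem ordProj_of_not_dvd {p a : ℕ} (h : ¬ p ∣ a) : ordProj[p] a = 1 := by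
  rw [Nat.factorization_eq_zero_of_not_dvd h, pow_zero]

/-- `p ∣ m`: all noncentral elements have the same `p`-part of the class size. -/
theorem ordProj_cs_of_dvd_m {p : ℕ} (hp : p.Prime) (hpm : p ∣ m) {x : G} (hx : x ∉ center G) :
    ordProj[p] (cs x) = ordProj[p] m := by
  have hm0 : m ≠ 0 := by have := H.hm; omega
  have hn0 : n ≠ 0 := by have := H.hn; omega
  rcases H.cs_noncentral hx with h | h
  · rw [h]
  · rw [h, Nat.ordProj_mul p hm0 hn0, ordProj_of_not_dvd H (H.not_dvd_n hp hpm), mul_one]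

end Hyp

end Cfsg.Agent.Lib.Nilpotent.OneMMN
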