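import Mathlib
import Cfsg.Agent.Lib.Nilpotent.OneMMN.Basic

/-!
# Generic lemmas on class sizes in an abstract finite group
-/

set_option autoImplicit false

namespace Cfsg.Agent.Lib.Nilpotent.OneMMN

open Subgroup Cfsg.Agent.Lib.ClassSize.Basic Cfsg.Agent.Lib.ClassSize.Coprime

universe u v

section Generic

variable {D : Type v} [Group D] [Finite D]

/-- A `p`-element commuting with a Sylow subgroup lies in it. -/
theorem mem_sylow_of_commute {p : ℕ} [Fact p.Prime] (P : Sylow p D) {u : D} (hu : El p u)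
    (hc : ∀ c ∈ (P : Subgroup D), u * c = c * u) : u ∈ (P : Subgroup D) := by
  have h1 : (zpowers u) ⊓ normalizer ((P : Subgroup D) : Set D) = (zpowers u) ⊓ P :=
    hu.isPGroup.inf_normalizer_sylow P
  have h2 : u ∈ (zpowers u) ⊓ normalizer ((P : Subgroup D) : Set D) := by
    refine Subgroup.mem_inf.2 ⟨mem_zpowers u, ?_⟩
    rw [Subgroup.mem_normalizer_iff]
    intro c
    constructor
    · intro hcP
      have : u * c * u⁻¹ = c := by rw [hc c hcP]; group
      rwa [this]
    · intro hcP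
      have h3 : u⁻¹ * (u * c * u⁻¹) * u = c := by group
      have h4 := hc _ hcP
      have h5 : u * c * u⁻¹ = c := by
        have h6 : u * (u * c * u⁻¹) = (u * c * u⁻¹) * u := h4
        have h7 : u * c = c * u := by
          have h8 : u * (u * c * u⁻¹) * u = (u * c * u⁻¹) * u * u := by rw [h6]
          have h9 : u * (u * c * u⁻¹) * u = u * (u * c) := by group
          have h10 : (u * c * u⁻¹) * u * u = u * (c * u) := by group
          rw [h9, h10] at h8
          exact mul_left_cancel h8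
        rw [h7]
        group
      rwa [h5] at hcP
  rw [h1] at h2
  exact h2.2

/-- A class of size `p`-power: a `q`-element commutes with the Sylow `r`-subgroups it acts on. -/
theorem commute_of_ppow_class {r q : ℕ} [Fact r.Prime] [Fact q.Prime] (hrq : r ≠ q)
    (P : Sylow r D) (hcl : ∀ u ∈ (P : Subgroup D), ∃ k : ℕ, cs u = r ^ k) {a : D} (ha : El q a) :
    ∀ u ∈ (P : Subgroup D), a * u = u * a := by
  classical
  have hrp : r.Prime := Fact.out
  have hqp : q.Prime := Fact.out
  have hcop : Nat.Coprime r q := (Nat.coprime_primes hrp hqp).2 hrq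
  -- the centralizer of `a` in `P`
  have htop : ((cent a).subgroupOf (P : Subgroup D)) = ⊤ := by
    apply Cfsg.Agent.Lib.Basic.JordanCover.eq_top_of_forall_conj_mem
    rintro ⟨u, hu⟩
    obtain ⟨k, hk⟩ := hcl u hu
    have hqn : ¬ q ∣ cs u := by
      rw [hk]
      intro hd
      exact hrq ((Nat.prime_dvd_prime_iff_eq hqp hrp).1 (hqp.dvd_of_dvd_pow hd)).symm
    obtain ⟨S, hS⟩ := exists_sylow_le_cent hqn
    obtain ⟨Q₁, hQ₁⟩ := Cfsg.Agent.Lib.Basic.SylowUtil.exists_sylow_of_orderOf ha.choose_spec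
    obtain ⟨d, hd⟩ := exists_conjS_eq S Q₁
    have h1 : d⁻¹ * a * d ∈ (S : Subgroup D) := by
      have hQ₂ : a ∈ (Q₁ : Subgroup D) := hQ₁
      rw [← hd] at hQ₂
      exact mem_conjS.1 hQ₂
    have h2 : u * (d⁻¹ * a * d) = (d⁻¹ * a * d) * u := mem_cent_iff.1 (hS h1)
    have hc2 : Nat.Coprime (P : Subgroup D).index (cent u).index := by
      show Nat.Coprime _ (cs u)
      rw [hk]
      exact Nat.Coprime.pow_right _ ((Nat.Prime.coprime_iff_not_dvd hrp).2 P.not_dvd_index).symm
    obtain ⟨ρ, hρ, c, hc, hd2⟩ := exists_mul_of_coprime hc2 d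
    have h3 : d * u * d⁻¹ = ρ * u * ρ⁻¹ := by
      have h4 : c * u = u * c := (mem_cent_iff.1 hc).symm
      rw [hd2]
      calc ρ * c * u * (ρ * c)⁻¹ = ρ * (c * u) * c⁻¹ * ρ⁻¹ := by group
        _ = ρ * (u * c) * c⁻¹ * ρ⁻¹ := by rw [h4]
        _ = ρ * u * ρ⁻¹ := by group
    refine ⟨⟨ρ, hρ⟩, ?_⟩
    rw [Subgroup.mem_subgroupOf]
    show ρ * u * ρ⁻¹ ∈ cent a
    rw [← h3, mem_cent_iff]
    have h5 : d * (u * (d⁻¹ * a * d)) * d⁻¹ = (d * u * d⁻¹) * a := by group
    have h6 : d * ((d⁻¹ * a * d) * u) * d⁻¹ = a * (d * u * d⁻¹) := by group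
    have h7 := congrArg (fun w => d * w * d⁻¹) h2
    simp only [h5, h6] at h7
    exact h7.symm
  intro u hu
  have h1 : (⟨u, hu⟩ : (P : Subgroup D)) ∈ ((cent a).subgroupOf (P : Subgroup D)) := by
    rw [htop]; trivial
  rw [Subgroup.mem_subgroupOf] at h1
  exact mem_cent_iff.1 h1

/-- Strict comparison of `p`-parts with the centre. -/
theorem lt_ordProj_of_el {t : ℕ} [Fact t.Prime] {v : D} (hv : El t v) (hvZ : v ∉ center D)
    {K : Subgroup D} (hK : ordProj[t] K.index = ordProj[t] (cs v)) :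
    ordProj[t] (Nat.card (center D)) < ordProj[t] (Nat.card K) := by
  obtain ⟨W, -, hWZ, hWp, hWc⟩ := exists_sylIn (p := t) (center D) ⊥ bot_le IsPGroup.of_bot
  -- the group generated by `W` and `v`
  haveI : W.Normal := by
    refine ⟨fun a ha g => ?_⟩
    have := Subgroup.mem_center_iff.1 (hWZ ha) g
    rwa [this, mul_inv_cancel_right]
  have hT : IsPGroup t (W ⊔ zpowers v : Subgroup D) := IsPGroup.to_sup_of_normal_left hWp hv.isPGroup
  have hTle : (W ⊔ zpowers v : Subgroup D) ≤ cent v := by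
    apply sup_le
    · exact le_trans hWZ (center_le_cent v)
    · rw [Subgroup.zpowers_le]
      exact mem_cent_self v
  have h1 := card_dvd_ordProj hTle hT
  have hpos : 0 < ordProj[t] (Nat.card (cent v)) := Nat.ordProj_pos _ _
  have h2 := Nat.le_of_dvd hpos h1
  have h3 : Nat.card W < Nat.card (W ⊔ zpowers v : Subgroup D) := by
    have hle : W ≤ (W ⊔ zpowers v : Subgroup D) := le_sup_left
    by_contra hge
    have heq := Subgroup.eq_of_le_of_card_ge hle (by omega)
    have : v ∈ W := by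
      rw [heq]
      exact (le_sup_right : zpowers v ≤ _) (mem_zpowers v)
    exact hvZ (hWZ this)
  have h4 := ordProj_card_mul_index (p := t) K
  have h5 := ordProj_card_mul_index (p := t) (cent v)
  have h6 : ordProj[t] (Nat.card K) = ordProj[t] (Nat.card (cent v)) := by
    have hpos2 : 0 < ordProj[t] (cs v) := Nat.ordProj_pos _ _
    have h7 : ordProj[t] (Nat.card K) * ordProj[t] (cs v) = ordProj[t] (Nat.card (cent v)) * ordProj[t] (cs v) := by
      calc _ = ordProj[t] (Nat.card K) * ordProj[t] K.index := by rw [hK]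
        _ = _ := h4
        _ = _ := h5.symm
    exact Nat.eq_of_mul_eq_mul_right hpos2 h7
  rw [h6, ← hWc]
  omega

/-- A noncentral `t`-element in `K` exists when `K` has the same `t`-part index as a noncentral
`t`-element's centralizer. -/
theorem exists_el_mem_of_el {t : ℕ} [Fact t.Prime] {v : D} (hv : El t v) (hvZ : v ∉ center D)
    {K : Subgroup D} (hK : ordProj[t] K.index = ordProj[t] (cs v)) :
    ∃ c ∈ K, El t c ∧ c ∉ center D := by
  obtain ⟨S, -, hSK, hSp, hSc⟩ := exists_sylIn (p := t) K ⊥ bot_le IsPGroup.of_bot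
  obtain ⟨c, hc, hcZ⟩ := exists_notMem_of_card_gt (p := t) (Z₀ := center D) hSp
    (by rw [hSc]; exact lt_ordProj_of_el hv hvZ hK)
  exact ⟨c, hSK hc, El.of_mem hSp hc, hcZ⟩

/-- If `t` divides a class size, there is a noncentral `t`-element. -/
theorem exists_el_not_center_of_dvd {t : ℕ} [Fact t.Prime] {x : D} (h : t ∣ cs x) :
    ∃ c : D, El t c ∧ c ∉ center D := by
  obtain ⟨P⟩ := (inferInstance : Nonempty (Sylow t D))
  by_cases hP : (P : Subgroup D) ≤ center D
  · exfalso
    exact not_dvd_cs_of_sylow_le P (le_trans hP (center_le_cent x)) h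
  · obtain ⟨c, hc, hcZ⟩ := SetLike.not_le_iff_exists.1 hP
    exact ⟨c, El.of_mem P.2 hc, hcZ⟩

/-- Parts: an element is a `p`-element times a `p'`-element. -/
theorem exists_parts' (x : D) (p : ℕ) [Fact p.Prime] :
    ∃ y z : D, x = y * z ∧ y ∈ zpowers x ∧ z ∈ zpowers x ∧ El p y ∧ Nat.Coprime (orderOf z) p := by
  obtain ⟨y, z, h1, h2, h3, h4, h5⟩ := Cfsg.Agent.Lib.Nilpotent.Parts.exists_parts x p
  exact ⟨y, z, h1, h2, h3, (Cfsg.Agent.Lib.Nilpotent.Elements.exists_pow_eq_one_iff y).1 h4, h5⟩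

end Generic

section Subtype

variable {G : Type u} [Group G] [Finite G]

/-- The class size in a subgroup. -/
theorem cs_subtype (D : Subgroup G) (a : D) : cs a = (cent (a : G)).relIndex D := by
  have h : (cent a : Subgroup D) = (cent (a : G)).subgroupOf D := by
    ext b
    rw [Subgroup.mem_subgroupOf, mem_cent_iff, mem_cent_iff]
    exact ⟨fun h => congrArg Subtype.val h, fun h => Subtype.ext h⟩
  show (cent a : Subgroup D).index = _
  rw [h]
  rfl

theorem El.subtype {D : Subgroup G} {a : D} {p : ℕ} : El p a ↔ El p (a : G) := by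
  unfold El
  rw [Subgroup.orderOf_coe]

end Subtype

end Cfsg.Agent.Lib.Nilpotent.OneMMN
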