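import Mathlib
import Cfsg.Agent.Lib.Nilpotent.OneMMN.Generic

/-!
# Class sizes `1, m, m n`: an abelian centralizer, or a very special case
-/

set_option autoImplicit false

namespace Cfsg.Agent.Lib.Nilpotent.OneMMN

open Subgroup Cfsg.Agent.Lib.ClassSize.Basic Cfsg.Agent.Lib.ClassSize.Coprime

universe u v

section Helpers

variable {D : Type v} [Group D] [Finite D]

theorem mem_zpowers_left_of_coprime {a b : D} (hab : Commute a b)
    (hc : Nat.Coprime (orderOf a) (orderOf b)) : a ∈ zpowers (a * b) := by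
  obtain ⟨m, hm⟩ := exists_pow_eq_self_of_coprime hc.symm
  have h2 : (a * b) ^ orderOf b = a ^ orderOf b := by
    rw [hab.mul_pow, pow_orderOf_eq_one, mul_one]
  have h3 : ((a * b) ^ orderOf b) ^ m = a := by rw [h2, hm]
  have h4 : ((a * b) ^ orderOf b) ^ m ∈ zpowers (a * b) :=
    (zpowers (a * b)).pow_mem ((zpowers (a * b)).pow_mem (mem_zpowers _) _) _
  rwa [h3] at h4

theorem mem_zpowers_right_of_coprime {a b : D} (hab : Commute a b)
    (hc : Nat.Coprime (orderOf a) (orderOf b)) : b ∈ zpowers (a * b) := by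
  have h1 := mem_zpowers_left_of_coprime hab hc
  have h2 := (zpowers (a * b)).mul_mem ((zpowers (a * b)).inv_mem h1) (mem_zpowers (a * b))
  have h3 : a⁻¹ * (a * b) = b := by group
  rwa [h3] at h2

theorem cent_le_of_mem_zpowers {x y : D} (h : y ∈ zpowers x) : cent x ≤ cent y := by
  obtain ⟨k, rfl⟩ := h
  intro u hu
  exact mem_cent_iff.2 ((show Commute x u from mem_cent_iff.1 hu).zpow_left k).eq

/-- All class sizes from witnesses. -/
theorem all_sizes_of_witnesses {n r s : ℕ} (hr : r.Prime) (hs : s.Prime) (hrs : r ≠ s)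
    (Wr : ∀ a : D, Nat.Coprime (orderOf a) r → cs a = 1 ∨ cs a = n)
    (Ws : ∀ a : D, Nat.Coprime (orderOf a) s → cs a = 1 ∨ cs a = n)
    (hthird : ∀ a : D, a ∉ center D → ∀ p : ℕ, p.Prime → El p a → ∃ t : ℕ, t.Prime ∧ t ≠ r ∧ t ≠ s ∧
      ∃ c ∈ cent a, El t c ∧ (c ∉ center D ∨ ∀ b : D, Nat.Coprime (orderOf b) t → cs b = 1 ∨ cs b = n))
    (a : D) : cs a = 1 ∨ cs a = n := by
  classical
  have hcop : ∀ {p w : ℕ} {x : D}, p.Prime → w.Prime → p ≠ w → El p x → Nat.Coprime (orderOf x) w := by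
    intro p w x hp hw hpw ⟨e, he⟩
    rw [he]
    exact Nat.Coprime.pow_left _ ((Nat.coprime_primes hp hw).2 hpw)
  have hne1 : ∀ {x : D}, x ∉ center D → cs x ≠ 1 := fun hx h => hx (index_cent_eq_one_iff.1 h)
  -- primary noncentral elements
  have hprim : ∀ {x : D} {p : ℕ}, p.Prime → El p x → x ∉ center D → cs x = n := by
    intro x p hp hx hxZ
    by_cases hpr : p = r
    · have h1 : p ≠ s := fun h => hrs (hpr ▸ h)
      exact (Ws x (hcop hp hs h1 hx)).resolve_left (hne1 hxZ)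
    · exact (Wr x (hcop hp hr hpr hx)).resolve_left (hne1 hxZ)
  have hpair1 : ∀ {x y : D} {p₁ p₂ w : ℕ}, p₁.Prime → p₂.Prime → w.Prime → El p₁ x → El p₂ y → p₁ ≠ p₂ →
      w ≠ p₁ → w ≠ p₂ → (∀ b : D, Nat.Coprime (orderOf b) w → cs b = 1 ∨ cs b = n) →
      x ∉ center D → y ∉ center D → Commute x y → cent x = cent y := by
    intro x y p₁ p₂ w hp₁ hp₂ hw hx hy h12 hw1 hw2 Sw hxZ hyZ hc
    have hcxy : Nat.Coprime (orderOf x) (orderOf y) := hx.coprime hp₁ hp₂ h12 hy
    have hxyw : Nat.Coprime (orderOf (x * y)) w := by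
      rw [hc.orderOf_mul_eq_mul_orderOf_of_coprime hcxy]
      exact Nat.Coprime.mul_left (hcop hp₁ hw hw1.symm hx) (hcop hp₂ hw hw2.symm hy)
    have hxyZ : x * y ∉ center D := by
      intro h
      have h1 : x ∈ zpowers (x * y) := mem_zpowers_left_of_coprime hc hcxy
      exact hxZ ((zpowers_le.2 h) h1)
    have hsz : cs (x * y) = n := (Sw _ hxyw).resolve_left (hne1 hxyZ)
    have h1 : cent (x * y) = cent x :=
      eq_of_le_of_index_eq (cent_mul_le_left hc hcxy) (hsz.trans (hprim hp₁ hx hxZ).symm)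
    have h2 : cent (x * y) = cent y :=
      eq_of_le_of_index_eq (cent_mul_le_right hc hcxy) (hsz.trans (hprim hp₂ hy hyZ).symm)
    rw [← h1, h2]
  have hpair : ∀ {x y : D} {p₁ p₂ : ℕ}, p₁.Prime → p₂.Prime → El p₁ x → El p₂ y → p₁ ≠ p₂ →
      x ∉ center D → y ∉ center D → Commute x y → cent x = cent y := by
    intro x y p₁ p₂ hp₁ hp₂ hx hy h12 hxZ hyZ hc
    by_cases h1 : r ≠ p₁ ∧ r ≠ p₂
    · exact hpair1 hp₁ hp₂ hr hx hy h12 h1.1 h1.2 Wr hxZ hyZ hc
    by_cases h2 : s ≠ p₁ ∧ s ≠ p₂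
    · exact hpair1 hp₁ hp₂ hs hx hy h12 h2.1 h2.2 Ws hxZ hyZ hc
    -- both `p₁`, `p₂` are `r`, `s`
    have hS1 : ∀ b : D, Nat.Coprime (orderOf b) p₁ → cs b = 1 ∨ cs b = n := by
      by_cases h3 : p₁ = r
      · rw [h3]; exact Wr
      · have h4 : p₁ = s := by
          by_contra h5
          have h6 : r = p₂ := by
            by_contra h7
            exact h1 ⟨fun h8 => h3 h8.symm, h7⟩
          have h8 : s = p₂ := by
            by_contra h9
            exact h2 ⟨fun h10 => h5 h10.symm, h9⟩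
          exact hrs (h6.trans h8.symm)
        rw [h4]; exact Ws
    have hS2 : ∀ b : D, Nat.Coprime (orderOf b) p₂ → cs b = 1 ∨ cs b = n := by
      by_cases h3 : p₂ = r
      · rw [h3]; exact Wr
      · have h4 : p₂ = s := by
          by_contra h5
          have h6 : r = p₁ := by
            by_contra h7
            exact h1 ⟨h7, fun h8 => h3 h8.symm⟩
          have h8 : s = p₁ := by
            by_contra h9
            exact h2 ⟨h9, fun h10 => h5 h10.symm⟩
          exact hrs (h6.trans h8.symm)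
        rw [h4]; exact Ws
    have hp₁rs : p₁ = r ∨ p₁ = s := by
      by_contra h3
      push Not at h3
      have h6 : r = p₂ := by
        by_contra h7
        exact h1 ⟨fun h8 => h3.1 h8.symm, h7⟩
      have h8 : s = p₂ := by
        by_contra h9
        exact h2 ⟨fun h10 => h3.2 h10.symm, h9⟩
      exact hrs (h6.trans h8.symm)
    have hp₂rs : p₂ = r ∨ p₂ = s := by
      by_contra h3
      push Not at h3
      have h6 : r = p₁ := by
        by_contra h7
        exact h1 ⟨h7, fun h8 => h3.1 h8.symm⟩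
      have h8 : s = p₁ := by
        by_contra h9
        exact h2 ⟨h9, fun h10 => h3.2 h10.symm⟩
      exact hrs (h6.trans h8.symm)
    obtain ⟨t, ht, htr, hts, c, hc1, hcel, hcase⟩ := hthird x hxZ p₁ hp₁ hx
    have ht1 : t ≠ p₁ := by
      rcases hp₁rs with h | h <;> rw [h] <;> assumption
    have ht2 : t ≠ p₂ := by
      rcases hp₂rs with h | h <;> rw [h] <;> assumption
    rcases hcase with hcZ | hSt
    · have hxc : Commute x c := mem_cent_iff.1 hc1
      have e1 : cent x = cent c := hpair1 hp₁ ht hp₂ hx hcel ht1.symm (Ne.symm h12) ht2.symm hS2 hxZ hcZ hxc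
      have hyc : Commute y c := by
        have : y ∈ cent c := by rw [← e1]; exact mem_cent_iff.2 hc.eq
        exact (mem_cent_iff.1 this).symm
      have e2 : cent y = cent c := hpair1 hp₂ ht hp₁ hy hcel ht2.symm h12 ht1.symm hS1 hyZ hcZ hyc
      rw [e1, e2]
    · exact hpair1 hp₁ hp₂ ht hx hy h12 ht1 ht2 hSt hxZ hyZ hc
  -- general elements
  by_cases haZ : a ∈ center D
  · left
    exact index_cent_eq_one_iff.2 haZ
  right
  obtain ⟨k, hk, p, e, hp, he⟩ := exists_primary_pow_notMem haZ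
  haveI : Fact p.Prime := ⟨hp⟩
  obtain ⟨y, z, hyz, hyp, hzp, hye, hzc⟩ := exists_parts' a p
  have hcomm : Commute y z := by
    obtain ⟨i, rfl⟩ := hyp
    obtain ⟨j, rfl⟩ := hzp
    exact (Commute.refl a).zpow_zpow _ _
  have hak : a ^ k = y ^ k := by
    have h1 : a ^ k = y ^ k * z ^ k := by rw [hyz, hcomm.mul_pow]
    have h2 : z ^ k = y⁻¹ ^ k * a ^ k := by
      rw [h1, ← mul_assoc, inv_pow, inv_mul_cancel, one_mul]
    obtain ⟨f, hf⟩ := hye
    have h3 : (z ^ k) ^ (p ^ e * p ^ f) = 1 := by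
      have hcc : Commute (y⁻¹ ^ k) (a ^ k) := by
        obtain ⟨i, hi⟩ := hyp
        have : y = a ^ i := hi.symm
        rw [this]
        exact ((Commute.refl a).zpow_left i).inv_left.pow_pow _ _
      rw [h2, hcc.mul_pow]
      have h4 : (a ^ k) ^ (p ^ e * p ^ f) = 1 := by
        rw [pow_mul, ← he, pow_orderOf_eq_one, one_pow]
      have h5 : (y⁻¹ ^ k) ^ (p ^ e * p ^ f) = 1 := by
        have h50 : y⁻¹ ^ (p ^ f) = 1 := by
          rw [inv_pow, ← hf, pow_orderOf_eq_one, inv_one]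
        calc (y⁻¹ ^ k) ^ (p ^ e * p ^ f) = y⁻¹ ^ (p ^ f * (k * p ^ e)) := by
              rw [← pow_mul]
              congr 1
              ring
          _ = 1 := by rw [pow_mul, h50, one_pow]
      rw [h4, h5, one_mul]
    have h6 : orderOf z ∣ k * (p ^ e * p ^ f) := by
      apply orderOf_dvd_of_pow_eq_one
      rw [pow_mul]
      exact h3
    have h7 : Nat.Coprime (orderOf z) (p ^ e * p ^ f) :=
      Nat.Coprime.mul_right (Nat.Coprime.pow_right _ hzc) (Nat.Coprime.pow_right _ hzc)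
    have h8 : orderOf z ∣ k := h7.dvd_of_dvd_mul_right h6
    have h9 : z ^ k = 1 := orderOf_dvd_iff_pow_eq_one.1 h8
    rw [h1, h9, mul_one]
  have hyZ : y ∉ center D := by
    intro h
    apply hk
    rw [hak]
    exact (center D).pow_mem h k
  have hsy : cs y = n := hprim hp hye hyZ
  have hM : ∀ x : D, x ∈ cent y → Nat.Coprime (orderOf x) p → cent y ≤ cent x := by
    intro x
    refine primary_induction (M := fun x => x ∈ cent y → Nat.Coprime (orderOf x) p → cent y ≤ cent x)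
      ?_ ?_ ?_ x
    · rintro x ⟨q, f, hq, ho⟩ hxy hxc
      by_cases hxZ : x ∈ center D
      · exact fun u _ => mem_cent_iff.2 ((Subgroup.mem_center_iff.1 hxZ u).symm)
      · have hqp : q ≠ p := by
          rintro rfl
          have hf0 : f = 0 := by
            by_contra hf
            rw [ho] at hxc
            have := Nat.Coprime.coprime_dvd_left (dvd_pow_self q hf) hxc
            exact hq.one_lt.ne' (by simpa using this)
          rw [hf0, pow_zero] at ho
          apply hxZ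
          rw [orderOf_eq_one_iff.1 ho]
          exact one_mem _
        have := hpair hp hq hye ⟨f, ho⟩ (Ne.symm hqp) hyZ hxZ (mem_cent_iff.1 hxy)
        rw [this]
    · intro _ _ u _
      exact mem_cent_iff.2 (by simp)
    · intro a' b' hab hc ha' hb' hmem hxc
      have ha'z := mem_zpowers_left_of_coprime hab hc
      have hb'z := mem_zpowers_right_of_coprime hab hc
      have hle : zpowers (a' * b') ≤ cent y := zpowers_le.2 hmem
      have h1 : orderOf a' ∣ orderOf (a' * b') := by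
        rw [hab.orderOf_mul_eq_mul_orderOf_of_coprime hc]
        exact dvd_mul_right _ _
      have h2 : orderOf b' ∣ orderOf (a' * b') := by
        rw [hab.orderOf_mul_eq_mul_orderOf_of_coprime hc]
        exact dvd_mul_left _ _
      exact le_trans (le_inf (ha' (hle ha'z) (hxc.coprime_dvd_left h1))
        (hb' (hle hb'z) (hxc.coprime_dvd_left h2))) (inf_cent_le_cent_mul a' b')
  have hzy : z ∈ cent y := by
    obtain ⟨i, hi⟩ := hyp
    obtain ⟨j, hj⟩ := hzp
    rw [mem_cent_iff, ← hi, ← hj]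
    exact ((Commute.refl a).zpow_zpow i j).eq
  have h1 : cent y ≤ cent a := by
    rw [hyz]
    exact le_trans (le_inf le_rfl (hM z hzy hzc)) (inf_cent_le_cent_mul y z)
  have h2 : cent a ≤ cent y := cent_le_of_mem_zpowers hyp
  have h3 : cent a = cent y := le_antisymm h2 h1
  show (cent a).index = n
  rw [h3]
  exact hsy

end Helpers

section Main

variable {G : Type u} [Group G] [Finite G]

omit [Finite G] in
theorem comm_conjS {S : Subgroup G} (hS : ∀ a ∈ S, ∀ b ∈ S, a * b = b * a) (x : G) :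
    ∀ a ∈ conjS x S, ∀ b ∈ conjS x S, a * b = b * a := by
  intro a ha b hb
  have h1 := hS _ (mem_conjS.1 ha) _ (mem_conjS.1 hb)
  have h2 : x⁻¹ * a * x * (x⁻¹ * b * x) = x⁻¹ * (a * b) * x := by group
  have h3 : x⁻¹ * b * x * (x⁻¹ * a * x) = x⁻¹ * (b * a) * x := by group
  rw [h2, h3] at h1
  exact mul_left_cancel (mul_right_cancel h1)

/-- `T ≤ K`, `p ∤ |G : K|`: a Sylow subgroup between. -/
theorem exists_sylow_of_le {p : ℕ} [Fact p.Prime] {K T : Subgroup G} (hK : ¬ p ∣ K.index) (hTK : T ≤ K)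
    (hT : IsPGroup p T) : ∃ P : Sylow p G, T ≤ P ∧ (P : Subgroup G) ≤ K := by
  obtain ⟨S, h1, h2, h3, h4⟩ := exists_sylIn K T hTK hT
  have hc : Nat.card S = p ^ (Nat.card G).factorization p := by
    rw [h4]
    have h5 := ordProj_card_mul_index (p := p) K
    rw [Nat.factorization_eq_zero_of_not_dvd hK, pow_zero, mul_one] at h5
    exact h5
  refine ⟨Sylow.ofCard S hc, h1, h2⟩

namespace Hyp

variable {m n : ℕ} (H : Hyp G m n)
include H

theorem le_cent_of_sylow_le {r : ℕ} [Fact r.Prime] (hrn : r ∣ n) {y w : G} (hy : cs y = m)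
    (hw : w ∈ cent y) (hc : Nat.Coprime (orderOf y) (orderOf w)) (P : Sylow r G)
    (hP : (P : Subgroup G) ≤ cent y ⊓ cent w) : cent y ≤ cent w := by
  rcases H.inf_index hy hw hc with h | h
  · exact h
  · exfalso
    apply P.not_dvd_index
    have h1 : (cent y ⊓ cent w).index ∣ (P : Subgroup G).index := Subgroup.index_dvd_of_le hP
    rw [h] at h1
    exact (dvd_mul_of_dvd_right hrn m).trans h1

theorem noncentral_of_sylow {r : ℕ} [Fact r.Prime] (hrn : r ∣ n) (P : Sylow r G) :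
    ∃ z ∈ (P : Subgroup G), z ∉ center G := by
  obtain ⟨x, hx⟩ := H.exmn
  by_contra hno
  push Not at hno
  exact not_dvd_cs_of_sylow_le P (le_trans hno (center_le_cent x))
    (by rw [hx]; exact dvd_mul_of_dvd_right hrn m)

theorem not_dvd_cs_m {r : ℕ} (hr : r.Prime) (hrn : r ∣ n) {y : G} (hy : cs y = m) : ¬ r ∣ cs y := by
  rw [hy]
  exact H.not_dvd_m hr hrn

/-- Abelian Sylow subgroup inside a centralizer: the centralizer is abelian. -/
theorem comm_of_sylow_comm {r s : ℕ} [hrF : Fact r.Prime] (hs : s.Prime) (hrs : r ≠ s) (hrn : r ∣ n)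
    {y : G} (hy : cs y = m) (hye : El s y) (P : Sylow r G) (hP : (P : Subgroup G) ≤ cent y)
    (hab : ∀ a ∈ (P : Subgroup G), ∀ b ∈ (P : Subgroup G), a * b = b * a) :
    ∀ a ∈ cent y, ∀ b ∈ cent y, a * b = b * a := by
  classical
  have hrp : r.Prime := hrF.out
  obtain ⟨z, hzP, hzZ⟩ := H.noncentral_of_sylow hrn P
  have hPz : (P : Subgroup G) ≤ cent z := fun a ha => mem_cent_iff.2 (hab z hzP a ha)
  have hzr : El r z := El.of_mem P.2 hzP
  have hzm : cs z = m := (H.cs_noncentral hzZ).resolve_right (fun h =>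
    not_dvd_cs_of_sylow_le P hPz (by rw [h]; exact dvd_mul_of_dvd_right hrn m))
  have hyz : y ∈ cent z := mem_cent_comm.1 (hP hzP)
  have hczy : Nat.Coprime (orderOf z) (orderOf y) := hzr.coprime hrp hs hrs hye
  have h1 : cent z ≤ cent y := H.le_cent_of_sylow_le hrn hzm hyz hczy P (le_inf hPz hP)
  have hEq : cent z = cent y := H.cent_eq_of_le hzm (H.not_center_of_m hy) h1
  -- `r`-elements of `D` are central in `D`
  have hi : ∀ a ∈ cent y, El r a → cent y ≤ cent a := by
    intro a ha har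
    obtain ⟨P₁, h2, h3⟩ := exists_sylow_of_le (H.not_dvd_cs_m hrp hrn hy) (zpowers_le.2 ha) har.isPGroup
    obtain ⟨x, hx⟩ := exists_conjS_eq P P₁
    have hP₁ab := comm_conjS hab x
    rw [hx] at hP₁ab
    have haP₁ : a ∈ (P₁ : Subgroup G) := h2 (mem_zpowers a)
    have hP₁a : (P₁ : Subgroup G) ≤ cent a := fun b hb => mem_cent_iff.2 (hP₁ab a haP₁ b hb)
    have hcya : Nat.Coprime (orderOf y) (orderOf a) := hye.coprime hs hrp hrs.symm har
    exact H.le_cent_of_sylow_le hrn hy ha hcya P₁ (le_inf h3 hP₁a)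
  have hii : ∀ u ∈ (P : Subgroup G), ∀ a ∈ cent y, a ∈ cent u := fun u hu a ha =>
    hi u (hP hu) (El.of_mem P.2 hu) ha
  have hiii : ∀ a ∈ cent y, Nat.Coprime (orderOf a) r → cent y ≤ cent a := by
    intro a ha hac
    have haz : a ∈ cent z := hEq ▸ ha
    have hcza : Nat.Coprime (orderOf z) (orderOf a) := by
      obtain ⟨e, he⟩ := hzr
      rw [he]
      exact Nat.Coprime.pow_left _ hac.symm
    have hPa : (P : Subgroup G) ≤ cent a := fun u hu => mem_cent_comm.1 (hii u hu a ha)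
    rw [← hEq]
    exact H.le_cent_of_sylow_le hrn hzm haz hcza P (le_inf hPz hPa)
  have hiv : ∀ a ∈ cent y, cent y ≤ cent a := by
    intro a ha
    obtain ⟨b, c, hbc, hb, hc, hbe, hcc⟩ := exists_parts' a r
    have hle : zpowers a ≤ cent y := zpowers_le.2 ha
    rw [hbc]
    exact le_trans (le_inf (hi b (hle hb) hbe) (hiii c (hle hc) hcc)) (inf_cent_le_cent_mul b c)
  intro a ha b hb
  exact mem_cent_iff.1 (hiv a ha hb)

/-- `r`-parts of class sizes. -/
theorem ordProj_cs_dvd {r : ℕ} (hr : r.Prime) (hrn : r ∣ n) (g : G) :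
    ordProj[r] (cs g) ∣ ordProj[r] n := by
  have hm0 : m ≠ 0 := by have := H.hm; omega
  have hn0 : n ≠ 0 := by have := H.hn; omega
  rcases H.size g with h | h | h
  · rw [h]
    simp
  · rw [h, ordProj_of_not_dvd H (H.not_dvd_m hr hrn)]
    exact one_dvd _
  · rw [h, Nat.ordProj_mul r hm0 hn0, ordProj_of_not_dvd H (H.not_dvd_m hr hrn), one_mul]

theorem ordProj_mn {r : ℕ} (hr : r.Prime) (hrn : r ∣ n) : ordProj[r] (m * n) = ordProj[r] n := by
  have hm0 : m ≠ 0 := by have := H.hm; omega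
  have hn0 : n ≠ 0 := by have := H.hn; omega
  rw [Nat.ordProj_mul r hm0 hn0, ordProj_of_not_dvd H (H.not_dvd_m hr hrn), one_mul]

/-- Jordan: a nonabelian Sylow subgroup in `cent y` contains a noncentral element of size `m`. -/
theorem exists_mem_m {r s : ℕ} [hrF : Fact r.Prime] (hs : s.Prime) (hrs : r ≠ s) (hrn : r ∣ n)
    {y : G} (hy : cs y = m) (hye : El s y) (P : Sylow r G) (hP : (P : Subgroup G) ≤ cent y)
    (hna : ∃ u ∈ (P : Subgroup G), ∃ v ∈ (P : Subgroup G), u * v ≠ v * u) :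
    ∃ u ∈ (P : Subgroup G), (∃ v ∈ (P : Subgroup G), u * v ≠ v * u) ∧ cs u = m := by
  classical
  have hrp : r.Prime := hrF.out
  by_contra hno
  push Not at hno
  have hmn : ∀ u ∈ (P : Subgroup G), (∃ v ∈ (P : Subgroup G), u * v ≠ v * u) → cs u = m * n := by
    rintro u hu ⟨v, hv, huv⟩
    have huZ : u ∉ center G := fun h => huv (Subgroup.mem_center_iff.1 h v).symm
    exact (H.cs_noncentral huZ).resolve_left (hno u hu ⟨v, hv, huv⟩)
  obtain ⟨u₀, hu₀, v₀, hv₀, huv₀⟩ := hna
  set ZP : Subgroup G := (P : Subgroup G) ⊓ centralizer ((P : Subgroup G) : Set G) with hZP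
  have hZPmem : ∀ {c : G}, c ∈ ZP → c ∈ (P : Subgroup G) ∧ ∀ d ∈ (P : Subgroup G), d * c = c * d := by
    intro c hc
    refine ⟨hc.1, fun d hd => ?_⟩
    exact (Subgroup.mem_centralizer_iff.1 hc.2) d hd
  set K₀ : Subgroup G := (P : Subgroup G) ⊓ cent u₀ with hK₀
  have hZK : ZP ≤ K₀ := by
    intro c hc
    refine ⟨hc.1, mem_cent_iff.2 ?_⟩
    exact (hZPmem hc).2 u₀ hu₀
  have hlt : Nat.card ZP < Nat.card K₀ := by
    by_contra hge
    have heq := Subgroup.eq_of_le_of_card_ge hZK (by omega)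
    have h1 : u₀ ∈ K₀ := ⟨hu₀, mem_cent_self u₀⟩
    rw [← heq] at h1
    exact huv₀ ((hZPmem h1).2 v₀ hv₀).symm
  have hK₀p : IsPGroup r K₀ := P.2.to_le inf_le_left
  obtain ⟨gp, hgp⟩ : ∃ gp, gp = ordProj[r] (Nat.card G) := ⟨_, rfl⟩
  set nr := ordProj[r] n with hnr
  have hnrpos : 0 < nr := Nat.ordProj_pos _ _
  have hK₀le : Nat.card K₀ * nr ≤ gp := by
    have h1 := card_dvd_ordProj (inf_le_right : K₀ ≤ cent u₀) hK₀p
    have h2 := ordProj_card_mul_index (p := r) (cent u₀)
    have h3 : cs u₀ = m * n := hmn u₀ hu₀ ⟨v₀, hv₀, huv₀⟩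
    have h4 : ordProj[r] (cent u₀).index = nr := by
      show ordProj[r] (cs u₀) = nr
      rw [h3, H.ordProj_mn hrp hrn]
    rw [h4] at h2
    have h5 : Nat.card K₀ * nr ∣ gp := by
      rw [hgp, ← h2]
      exact Nat.mul_dvd_mul_right h1 nr
    exact Nat.le_of_dvd (by rw [hgp]; exact Nat.ordProj_pos _ _) h5
  -- the covering
  have hcover : ∀ h : G, ∃ x : G, x * h * x⁻¹ ∈ cent y := by
    intro h
    obtain ⟨a, g, hag, ha, hg, hae, hgc⟩ := exists_parts' h r
    have hag' : Commute a g := by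
      obtain ⟨i, hi⟩ := ha
      obtain ⟨j, hj⟩ := hg
      rw [← hi, ← hj]
      exact (Commute.refl h).zpow_zpow i j
    have haC : zpowers a ≤ cent g := zpowers_le.2 (mem_cent_iff.2 hag'.symm.eq)
    obtain ⟨S, hSa, hSg, hSp, hSc⟩ := exists_sylIn (cent g) (zpowers a) haC hae.isPGroup
    have hSbig : Nat.card K₀ ≤ Nat.card S := by
      have h1 := ordProj_card_mul_index (p := r) (cent g)
      rw [← hSc] at h1
      have h2 : ordProj[r] (cent g).index ≤ nr :=
        Nat.le_of_dvd hnrpos (H.ordProj_cs_dvd hrp hrn g)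
      have h3 : Nat.card K₀ * nr ≤ Nat.card S * nr := by
        calc Nat.card K₀ * nr ≤ gp := hK₀le
          _ = Nat.card S * ordProj[r] (cent g).index := by rw [hgp, h1]
          _ ≤ Nat.card S * nr := Nat.mul_le_mul_left _ h2
      exact Nat.le_of_mul_le_mul_right h3 hnrpos
    obtain ⟨x, hx⟩ := exists_conjS_le hSp P
    have hex : ∃ c ∈ conjS x S, c ∉ ZP := by
      by_contra hno2
      push Not at hno2
      have h1 := Subgroup.card_le_of_le (show conjS x S ≤ ZP from hno2)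
      rw [card_conjS] at h1
      omega
    obtain ⟨c, hcS, hcZ⟩ := hex
    have hcP : c ∈ (P : Subgroup G) := hx hcS
    have hcnc : ∃ v ∈ (P : Subgroup G), c * v ≠ v * c := by
      by_contra hno3
      push Not at hno3
      apply hcZ
      refine ⟨hcP, Subgroup.mem_centralizer_iff.2 fun d hd => ?_⟩
      exact (hno3 d hd).symm
    have hcs : cs c = m * n := hmn c hcP hcnc
    have hcE : El r c := El.of_mem P.2 hcP
    have hyc : y ∈ cent c := mem_cent_comm.1 (hP hcP)
    have hC : cent c ≤ cent y := H.cent_le_of_mn hcs hyc (hcE.coprime hrp hs hrs hye)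
    have hc1 : x⁻¹ * c * x ∈ cent g := hSg (mem_conjS.1 hcS)
    have hg1 : x * g * x⁻¹ ∈ cent c := by
      rw [mem_cent_comm, conj_mem_cent_iff]
      exact hc1
    have hg2 : x * g * x⁻¹ ∈ cent y := hC hg1
    have ha1 : x * a * x⁻¹ ∈ cent y := hP (hx (conj_mem_conjS (hSa (mem_zpowers a))))
    refine ⟨x, ?_⟩
    have h9 : x * h * x⁻¹ = (x * a * x⁻¹) * (x * g * x⁻¹) := by
      rw [hag]
      group
    rw [h9]
    exact (cent y).mul_mem ha1 hg2
  have htop := Cfsg.Agent.Lib.Basic.JordanCover.eq_top_of_forall_conj_mem (cent y) hcover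
  have h1 : cs y = 1 := by
    show (cent y).index = 1
    rw [htop]
    exact Subgroup.index_top
  exact H.not_center_of_m hy (index_cent_eq_one_iff.1 h1)

/-- A witness in the centre of a Sylow subgroup, from an element of size `m`. -/
theorem exists_witness {r s : ℕ} [hrF : Fact r.Prime] (hs : s.Prime) (hrs : r ≠ s) (hrn : r ∣ n)
    {y : G} (hy : cs y = m) (hye : El s y) (P : Sylow r G) (hP : (P : Subgroup G) ≤ cent y)
    {u : G} (hu : u ∈ (P : Subgroup G)) (hum : cs u = m) :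
    ∃ g z : G, z ∈ (P : Subgroup G) ∧ u = g * z * g⁻¹ ∧ (P : Subgroup G) ≤ cent z ∧ z ∉ center G ∧
      cent z = cent y := by
  have hrp : r.Prime := hrF.out
  obtain ⟨R₂, hR₂⟩ := exists_sylow_le_cent (H.not_dvd_cs_m hrp hrn hum)
  have huE : El r u := El.of_mem P.2 hu
  have huR₂ : u ∈ (R₂ : Subgroup G) := mem_sylow_of_commute R₂ huE (fun c hc => mem_cent_iff.1 (hR₂ hc))
  obtain ⟨g, hg⟩ := exists_conjS_eq P R₂
  have hz : g⁻¹ * u * g ∈ (P : Subgroup G) := by
    rw [← hg] at huR₂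
    exact mem_conjS.1 huR₂
  have hu' : u = g * (g⁻¹ * u * g) * g⁻¹ := by group
  have hPz : (P : Subgroup G) ≤ cent (g⁻¹ * u * g) := by
    intro c hc
    have h1 : g * c * g⁻¹ ∈ (R₂ : Subgroup G) := hg ▸ conj_mem_conjS hc
    have h2 := mem_cent_iff.1 (hR₂ h1)
    rw [mem_cent_iff]
    have h3 : g⁻¹ * (u * (g * c * g⁻¹)) * g = g⁻¹ * u * g * c := by group
    have h4 : g⁻¹ * ((g * c * g⁻¹) * u) * g = c * (g⁻¹ * u * g) := by group
    rw [← h3, ← h4, h2]
  have hzZ : g⁻¹ * u * g ∉ center G := by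
    intro h
    have h5 := Subgroup.mem_center_iff.1 h g
    have h6 : u ∈ center G := by
      have h7 : u = g⁻¹ * u * g := by
        have h8 : g * (g⁻¹ * u * g) * g⁻¹ = u := by group
        rw [h5] at h8
        simpa using h8.symm
      rw [h7]
      exact h
    exact H.not_center_of_m hum h6
  have hzE : El r (g⁻¹ * u * g) := El.of_mem P.2 hz
  have h7 : cent y ≤ cent (g⁻¹ * u * g) :=
    H.le_cent_of_sylow_le hrn hy (hP hz) (hye.coprime hs hrp hrs.symm hzE) P (le_inf hP hPz)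
  exact ⟨g, _, hz, hu', hPz, hzZ, (H.cent_eq_of_le hy hzZ h7).symm⟩

/-- Relative index of centralizers inside `cent y`. -/
theorem relIndex_cases {y a : G} (hy : cs y = m) (ha : a ∈ cent y)
    (hc : Nat.Coprime (orderOf y) (orderOf a)) :
    (cent a).relIndex (cent y) = 1 ∨ (cent a).relIndex (cent y) = n := by
  have hm0 : 0 < m := by have := H.hm; omega
  rcases H.inf_index hy ha hc with h | h
  · left
    exact Subgroup.relIndex_eq_one.2 h
  · right
    have h1 : (cent y ⊓ cent a).relIndex (cent y) * (cent y).index = (cent y ⊓ cent a).index :=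
      Subgroup.relIndex_mul_index inf_le_left
    rw [Subgroup.inf_relIndex_left, h] at h1
    have h2 : (cent y).index = m := hy
    rw [h2, mul_comm] at h1
    exact Nat.eq_of_mul_eq_mul_left hm0 h1

/-- Prime power `n`: Sylow `r`-subgroups in the centralizer of a non-`r` element are abelian. -/
theorem sylow_comm_of_ppow {r s e : ℕ} [hrF : Fact r.Prime] [hsF : Fact s.Prime] (hrs : r ≠ s)
    (hne : n = r ^ e) {y : G} (hy : cs y = m) (hye : El s y) (P : Sylow r G)
    (hP : (P : Subgroup G) ≤ cent y) (hrn : r ∣ n) :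
    ∀ a ∈ (P : Subgroup G), ∀ b ∈ (P : Subgroup G), a * b = b * a := by
  classical
  have hrp : r.Prime := hrF.out
  have hsp : s.Prime := hsF.out
  by_contra hna
  push Not at hna
  obtain ⟨u₀, hu₀, v₀, hv₀, huv₀⟩ := hna
  obtain ⟨u, hu, ⟨v, hv, huv⟩, hum⟩ := H.exists_mem_m hsp hrs hrn hy hye P hP ⟨u₀, hu₀, v₀, hv₀, huv₀⟩
  obtain ⟨g, z, hzP, huz, hPz, hzZ, hCz⟩ := H.exists_witness hsp hrs hrn hy hye P hP hu hum
  have hzE : El r z := El.of_mem P.2 hzP
  have hCu : cent u = conjS g (cent y) := by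
    rw [huz, cent_conj, hCz]
  have hyCu : y ∈ cent u := mem_cent_comm.1 (hP hu)
  have hy₂ : g⁻¹ * y * g ∈ cent y := by
    rw [hCu] at hyCu
    exact mem_conjS.1 hyCu
  have hy₂E : El s (g⁻¹ * y * g) := by
    have := hye.conj g⁻¹
    simpa using this
  -- the group `D = cent y`
  let D := cent y
  let P' : Sylow r D := P.subtype hP
  have hcl : ∀ a ∈ (P' : Subgroup D), ∃ k : ℕ, cs a = r ^ k := by
    intro a ha
    have ha' : (a : G) ∈ (P : Subgroup G) := by
      have h1 : a ∈ (P : Subgroup G).subgroupOf D := by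
        rw [← P.coe_subtype hP]
        exact ha
      exact Subgroup.mem_subgroupOf.1 h1
    have haE : El r (a : G) := El.of_mem P.2 ha'
    rw [cs_subtype]
    rcases H.relIndex_cases hy a.2 (hye.coprime hsp hrp hrs.symm haE) with h | h
    · exact ⟨0, by rw [h, pow_zero]⟩
    · exact ⟨e, by rw [h, hne]⟩
  have hcomm := commute_of_ppow_class (D := D) hrs P' hcl (a := ⟨g⁻¹ * y * g, hy₂⟩)
    (El.subtype.2 hy₂E)
  have hPy₂ : (P : Subgroup G) ≤ cent (g⁻¹ * y * g) := by
    intro c hc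
    have hcD : c ∈ D := hP hc
    have hc' : (⟨c, hcD⟩ : D) ∈ (P' : Subgroup D) := by
      rw [P.coe_subtype hP, Subgroup.mem_subgroupOf]
      exact hc
    have h1 := congrArg Subtype.val (hcomm _ hc')
    exact mem_cent_iff.2 h1
  have hzy₂ : g⁻¹ * y * g ∈ cent z := by
    rw [hCz]
    exact hy₂
  have h2 : cent z ≤ cent (g⁻¹ * y * g) :=
    H.le_cent_of_sylow_le hrn (by show (cent z).index = m; rw [hCz]; exact hy) hzy₂
      (hzE.coprime hrp hsp hrs hy₂E) P (le_inf hPz hPy₂)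
  rw [hCz] at h2
  have h3 : cent (g⁻¹ * y * g) = conjS g⁻¹ (cent y) := by
    have := cent_conj g⁻¹ y
    simpa using this
  rw [h3] at h2
  have h4 : cent y = conjS g⁻¹ (cent y) := Subgroup.eq_of_le_of_card_ge h2 (by
    rw [card_conjS])
  have h5 : conjS g (cent y) = cent y := by
    conv_lhs => rw [h4]
    exact conjS_conjS_inv g (cent y)
  rw [h5] at hCu
  have h6 : v ∈ cent u := by
    rw [hCu]
    exact hP hv
  exact huv (mem_cent_iff.1 h6)

/-- `n` not a prime power: Sylow `r`-subgroups in the centralizer of a non-`r` element are abelian. -/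
theorem sylow_comm_of_not_ppow {r s : ℕ} [hrF : Fact r.Prime] [hsF : Fact s.Prime] (hrs : r ≠ s)
    (hnpp : ¬ ∃ p e : ℕ, p.Prime ∧ n = p ^ e) {y : G} (hy : cs y = m) (hye : El s y) (P : Sylow r G)
    (hP : (P : Subgroup G) ≤ cent y) (hrn : r ∣ n) :
    ∀ a ∈ (P : Subgroup G), ∀ b ∈ (P : Subgroup G), a * b = b * a := by
  classical
  have hrp : r.Prime := hrF.out
  have hsp : s.Prime := hsF.out
  by_contra hna
  push Not at hna
  obtain ⟨u₀, hu₀, v₀, hv₀, huv₀⟩ := hna
  obtain ⟨u, hu, ⟨v, hv, huv⟩, hum⟩ := H.exists_mem_m hsp hrs hrn hy hye P hP ⟨u₀, hu₀, v₀, hv₀, huv₀⟩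
  obtain ⟨g, z, hzP, huz, hPz, hzZ, hCz⟩ := H.exists_witness hsp hrs hrn hy hye P hP hu hum
  have hzE : El r z := El.of_mem P.2 hzP
  have hzm : cs z = m := by
    show (cent z).index = m
    rw [hCz]
    exact hy
  let D := cent y
  -- witnesses
  have wit : ∀ {w : ℕ} {c : G}, cs c = m → cent c = cent y → w.Prime → El w c → ∀ a : D,
      Nat.Coprime (orderOf a) w → cs a = 1 ∨ cs a = n := by
    intro w c hcm hcy hw hcE a hac
    rw [cs_subtype]
    have h1 : (a : G) ∈ cent c := by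
      rw [hcy]
      exact a.2
    have hc1 : Nat.Coprime (orderOf c) (orderOf (a : G)) := by
      obtain ⟨e, he⟩ := hcE
      rw [he, Subgroup.orderOf_coe]
      exact Nat.Coprime.pow_left _ hac.symm
    have := H.relIndex_cases hcm h1 hc1
    rwa [hcy] at this
  have Wr := wit hzm hCz hrp hzE
  have Ws := wit hy rfl hsp hye
  -- the third prime
  have hthird : ∃ t : ℕ, t.Prime ∧ t ≠ r ∧ t ≠ s ∧ (t ∣ m ∨ t ∣ n) := by
    by_cases hsn : s ∣ n
    · have hm1 : m ≠ 1 := by have := H.hm; omega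
      refine ⟨m.minFac, Nat.minFac_prime hm1, ?_, ?_, Or.inl (Nat.minFac_dvd m)⟩
      · intro h
        exact H.not_dvd_m hrp hrn (h ▸ Nat.minFac_dvd m)
      · intro h
        exact H.not_dvd_m hsp hsn (h ▸ Nat.minFac_dvd m)
    · have hex : ∃ t : ℕ, t.Prime ∧ t ∣ n ∧ t ≠ r := by
        by_contra hno
        push Not at hno
        apply hnpp
        refine ⟨r, _, hrp, Nat.eq_prime_pow_of_unique_prime_dvd (by have := H.hn; omega) ?_⟩
        intro d hd hdn
        exact hno d hd hdn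
      obtain ⟨t, ht, htn, htr⟩ := hex
      exact ⟨t, ht, htr, fun h => hsn (h ▸ htn), Or.inr htn⟩
  obtain ⟨t, ht, htr, hts, htd⟩ := hthird
  haveI htF : Fact t.Prime := ⟨ht⟩
  have hall : ∀ a : D, cs a = 1 ∨ cs a = n := by
    apply all_sizes_of_witnesses hrp hsp hrs Wr Ws
    intro a haZ p hp hae
    refine ⟨t, ht, htr, hts, ?_⟩
    have hsa : cs a = n := by
      have hne1 : cs a ≠ 1 := fun h => haZ (index_cent_eq_one_iff.1 h)
      by_cases hpr : p = r
      · have h1 : p ≠ s := fun h => hrs (hpr ▸ h)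
        refine (Ws a ?_).resolve_left hne1
        obtain ⟨e, he⟩ := hae
        rw [he]
        exact Nat.Coprime.pow_left _ ((Nat.coprime_primes hp hsp).2 h1)
      · refine (Wr a ?_).resolve_left hne1
        obtain ⟨e, he⟩ := hae
        rw [he]
        exact Nat.Coprime.pow_left _ ((Nat.coprime_primes hp hrp).2 hpr)
    rcases htd with htm | htn
    · -- `t ∣ m`
      have hK : (cent y ⊓ cent (a : G)).index = m * n := by
        have h1 : (cent (a : G)).relIndex (cent y) = n := by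
          rw [← cs_subtype]
          exact hsa
        have h2 := Subgroup.relIndex_mul_index (inf_le_left : cent y ⊓ cent (a : G) ≤ cent y)
        rw [Subgroup.inf_relIndex_left, h1] at h2
        rw [← h2, mul_comm]
        congr 1
      obtain ⟨x₀, hx₀⟩ := H.exm
      obtain ⟨v₁, hv₁E, hv₁Z⟩ := exists_el_not_center_of_dvd (D := G) (t := t) (x := x₀)
        (by rw [hx₀]; exact htm)
      obtain ⟨c, hcK, hcE, hcZ⟩ := exists_el_mem_of_el hv₁E hv₁Z (K := cent y ⊓ cent (a : G)) (by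
        rw [hK, H.ordProj_cs_of_dvd_m ht htm hv₁Z]
        have hm0 : m ≠ 0 := by have := H.hm; omega
        have hn0 : n ≠ 0 := by have := H.hn; omega
        rw [Nat.ordProj_mul t hm0 hn0, ordProj_of_not_dvd H (H.not_dvd_n ht htm), mul_one])
      refine ⟨⟨c, hcK.1⟩, ?_, El.subtype.2 hcE, ?_⟩
      · rw [mem_cent_iff]
        exact Subtype.ext (mem_cent_iff.1 hcK.2)
      · by_cases hcc : (⟨c, hcK.1⟩ : D) ∈ center D
        · right
          have hle : cent y ≤ cent c := by
            intro d hd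
            have h1 := Subgroup.mem_center_iff.1 hcc ⟨d, hd⟩
            exact mem_cent_iff.2 (congrArg Subtype.val h1).symm
          have hEq := H.cent_eq_of_le hy hcZ hle
          exact wit (H.cs_eq_m_of_le hy hcZ hle) hEq.symm ht hcE
        · exact Or.inl hcc
    · -- `t ∣ n`
      obtain ⟨v₁, hv₁E, hv₁Z⟩ := exists_el_not_center_of_dvd (D := D) (t := t) (x := a) (by
        rw [hsa]; exact htn)
      have hsv : cs v₁ = n := by
        have hne1 : cs v₁ ≠ 1 := fun h => hv₁Z (index_cent_eq_one_iff.1 h)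
        refine (Wr v₁ ?_).resolve_left hne1
        obtain ⟨e, he⟩ := hv₁E
        rw [he]
        exact Nat.Coprime.pow_left _ ((Nat.coprime_primes ht hrp).2 htr)
      obtain ⟨c, hcK, hcE, hcZ⟩ := exists_el_mem_of_el hv₁E hv₁Z (K := cent a) (by
        show ordProj[t] (cs a) = ordProj[t] (cs v₁)
        rw [hsa, hsv])
      exact ⟨c, hcK, hcE, Or.inl hcZ⟩
  -- Ito
  have hnn : 1 < n := H.hn
  obtain ⟨p, hp, hpg⟩ := Cfsg.Agent.Lib.ClassSize.TwoSize.exists_isPGroup_quotient (G := D) hall hnn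
  -- a noncentral element of `D`
  have huD : u ∈ D := hP hu
  have hvD : v ∈ D := hP hv
  have huZ : (⟨u, huD⟩ : D) ∉ center D := by
    intro h
    have h1 := Subgroup.mem_center_iff.1 h ⟨v, hvD⟩
    exact huv (congrArg Subtype.val h1).symm
  have hsu : cs (⟨u, huD⟩ : D) = n :=
    (hall _).resolve_left (fun h => huZ (index_cent_eq_one_iff.1 h))
  have h1 := Cfsg.Agent.Lib.ClassSize.TwoSize.index_map_mk_center (⟨u, huD⟩ : D)
  have h2 : ((cent (⟨u, huD⟩ : D)).map (QuotientGroup.mk' (center D))).index ∣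
      Nat.card (D ⧸ center D) := Subgroup.index_dvd_card _
  rw [h1] at h2
  change cs (⟨u, huD⟩ : D) ∣ _ at h2
  rw [hsu] at h2
  haveI : Fact p.Prime := ⟨hp⟩
  obtain ⟨k, hk⟩ := IsPGroup.iff_card.1 hpg
  rw [hk] at h2
  obtain ⟨j, -, hj⟩ := (Nat.dvd_prime_pow hp).1 h2
  exact hnpp ⟨p, j, hp, hj⟩

/-- An element of size `m` and prime power order exists. -/
theorem exists_primary_m : ∃ y : G, cs y = m ∧ ∃ s : ℕ, s.Prime ∧ El s y := by
  obtain ⟨x, hx⟩ := H.exm
  obtain ⟨k, hk, s, e, hs, he⟩ := exists_primary_pow_notMem (H.not_center_of_m hx)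
  exact ⟨x ^ k, H.cs_eq_m_of_le hx hk (cent_le_of_pow x k), s, hs, e, he⟩

/-- An abelian centralizer from a prime `r ∣ n` different from `s`. -/
theorem comm_of_prime {r s : ℕ} (hr : r.Prime) (hs : s.Prime) (hrs : r ≠ s) (hrn : r ∣ n)
    {y : G} (hy : cs y = m) (hye : El s y)
    (hrpp : (¬ ∃ p e : ℕ, p.Prime ∧ n = p ^ e) ∨ ∃ e : ℕ, n = r ^ e) :
    ∀ a ∈ cent y, ∀ b ∈ cent y, a * b = b * a := by
  haveI : Fact r.Prime := ⟨hr⟩
  haveI : Fact s.Prime := ⟨hs⟩
  obtain ⟨P, hP⟩ := exists_sylow_le_cent (H.not_dvd_cs_m hr hrn hy)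
  apply H.comm_of_sylow_comm hs hrs hrn hy hye P hP
  rcases hrpp with h | ⟨e, he⟩
  · exact H.sylow_comm_of_not_ppow hrs h hy hye P hP hrn
  · exact H.sylow_comm_of_ppow hrs he hy hye P hP hrn

/-- **Dichotomy.** Either some element of size `m` has abelian centralizer, or `n` is a power of a
prime `r` and all elements of size `m` and prime power order are `r`-elements. -/
theorem dichotomy :
    (∃ y : G, cs y = m ∧ ∀ a ∈ cent y, ∀ b ∈ cent y, a * b = b * a) ∨
    (∃ r e : ℕ, r.Prime ∧ n = r ^ e ∧ ∀ (a : G) (s : ℕ), s.Prime → El s a → cs a = m → s = r) := by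
  classical
  have hn0 : n ≠ 0 := by have := H.hn; omega
  have hn1 : n ≠ 1 := by have := H.hn; omega
  by_cases hpp : ∃ p e : ℕ, p.Prime ∧ n = p ^ e
  · obtain ⟨r, e, hr, hne⟩ := hpp
    have he0 : e ≠ 0 := by
      rintro rfl
      exact hn1 (by simpa using hne)
    have hrn : r ∣ n := hne ▸ dvd_pow_self r he0
    by_cases hall : ∀ (a : G) (s : ℕ), s.Prime → El s a → cs a = m → s = r
    · exact Or.inr ⟨r, e, hr, hne, hall⟩
    · push Not at hall
      obtain ⟨a, s, hs, hae, ham, hsr⟩ := hall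
      exact Or.inl ⟨a, ham, H.comm_of_prime hr hs (Ne.symm hsr) hrn ham hae (Or.inr ⟨e, hne⟩)⟩
  · obtain ⟨y, hy, s, hs, hye⟩ := H.exists_primary_m
    have hex : ∃ r : ℕ, r.Prime ∧ r ∣ n ∧ r ≠ s := by
      by_contra hno
      push Not at hno
      apply hpp
      refine ⟨s, _, hs, Nat.eq_prime_pow_of_unique_prime_dvd hn0 ?_⟩
      intro d hd hdn
      exact hno d hd hdn
    obtain ⟨r, hr, hrn, hrs⟩ := hex
    exact Or.inl ⟨y, hy, H.comm_of_prime hr hs hrs hrn hy hye (Or.inl hpp)⟩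

end Hyp

end Main

end Cfsg.Agent.Lib.Nilpotent.OneMMN
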