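import Mathlib
import Cfsg.Agent.Lib.Nilpotent.OneMMN.PartA

/-!
# Tools: elements central modulo the centre of a `p`-group, fixed point free actions
-/

set_option autoImplicit false

namespace Cfsg.Agent.Lib.Nilpotent.OneMMN

open Subgroup Cfsg.Agent.Lib.ClassSize.Basic Cfsg.Agent.Lib.ClassSize.Coprime

universe u v

section Tools

variable {G : Type u} [Group G]

theorem cent_mul_central {z a : G} (hz : z ∈ center G) : cent (z * a) = cent a := by
  ext u
  have hzu : Commute z u := (Subgroup.mem_center_iff.1 hz u).symm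
  rw [mem_cent_iff, mem_cent_iff]
  constructor
  · intro h1
    have c1 : Commute (z * a) u := h1
    have h3 : a = z⁻¹ * (z * a) := by group
    have c2 : Commute a u := by
      rw [h3]
      exact hzu.inv_left.mul_left c1
    exact c2.eq
  · intro h1
    exact (hzu.mul_left (show Commute a u from h1)).eq

theorem cent_conj_of_central {c u : G} (h : c * u * c⁻¹ * u⁻¹ ∈ center G) :
    cent (c * u * c⁻¹) = cent u := by
  have h1 : c * u * c⁻¹ = (c * u * c⁻¹ * u⁻¹) * u := by group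
  rw [h1]
  exact cent_mul_central h

theorem conj_mem_cent_of_central {c u w : G} (h : c * u * c⁻¹ * u⁻¹ ∈ center G) (hw : w ∈ cent u) :
    c * w * c⁻¹ ∈ cent u := by
  have h1 := cent_conj_of_central h
  rw [← h1, cent_conj]
  exact conj_mem_conjS hw

/-- Iterated central twist. -/
theorem conj_pow_eq {c u z : G} (hz : z ∈ center G) (h : c * u * c⁻¹ = z * u) (k : ℕ) :
    c ^ k * u * (c ^ k)⁻¹ = z ^ k * u := by
  induction k with
  | zero => simp
  | succ k ih =>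
    have h1 : c ^ (k + 1) * u * (c ^ (k + 1))⁻¹ = c * (c ^ k * u * (c ^ k)⁻¹) * c⁻¹ := by
      rw [pow_succ']
      group
    rw [h1, ih]
    have h2 : c * (z ^ k * u) * c⁻¹ = z ^ k * (c * u * c⁻¹) := by
      have h3 := Subgroup.mem_center_iff.1 ((center G).pow_mem hz k) c
      rw [← mul_assoc c, h3]
      group
    rw [h2, h, pow_succ]
    group

theorem comm_mem_of_central {c d u : G} (hc : c * u * c⁻¹ * u⁻¹ ∈ center G)
    (hd : d * u * d⁻¹ * u⁻¹ ∈ center G) : (d * c)⁻¹ * (c * d) ∈ cent u := by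
  set zc := c * u * c⁻¹ * u⁻¹ with hzc
  set zd := d * u * d⁻¹ * u⁻¹ with hzd
  have h1 : c * u * c⁻¹ = zc * u := by rw [hzc]; group
  have h2 : d * u * d⁻¹ = zd * u := by rw [hzd]; group
  have h3 : (c * d) * u * (c * d)⁻¹ = zd * zc * u := by
    have e1 : (c * d) * u * (c * d)⁻¹ = c * (d * u * d⁻¹) * c⁻¹ := by group
    rw [e1, h2]
    have e2 : c * (zd * u) * c⁻¹ = zd * (c * u * c⁻¹) := by
      have h4 := Subgroup.mem_center_iff.1 hd c
      rw [← mul_assoc c, h4]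
      group
    rw [e2, h1]
    group
  have h4 : (d * c) * u * (d * c)⁻¹ = zc * zd * u := by
    have e1 : (d * c) * u * (d * c)⁻¹ = d * (c * u * c⁻¹) * d⁻¹ := by group
    rw [e1, h1]
    have e2 : d * (zc * u) * d⁻¹ = zc * (d * u * d⁻¹) := by
      have h4 := Subgroup.mem_center_iff.1 hc d
      rw [← mul_assoc d, h4]
      group
    rw [e2, h2]
    group
  have h5 : zd * zc = zc * zd := (Subgroup.mem_center_iff.1 hd zc).symm
  have h6 : (c * d) * u * (c * d)⁻¹ = (d * c) * u * (d * c)⁻¹ := by rw [h3, h4, h5]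
  rw [mem_cent_iff]
  have h7 : (d * c)⁻¹ * ((c * d) * u * (c * d)⁻¹) * (d * c) = (d * c)⁻¹ * ((d * c) * u * (d * c)⁻¹) * (d * c) := by
    rw [h6]
  have h8 : (d * c)⁻¹ * ((d * c) * u * (d * c)⁻¹) * (d * c) = u := by group
  rw [h8] at h7
  calc u * ((d * c)⁻¹ * (c * d)) = ((d * c)⁻¹ * ((c * d) * u * (c * d)⁻¹) * (d * c)) * ((d * c)⁻¹ * (c * d)) := by
        rw [h7]
    _ = (d * c)⁻¹ * (c * d) * u := by group

theorem pow_mem_of_central {p : ℕ} {c u : G} (hc : c * u * c⁻¹ * u⁻¹ ∈ center G)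
    (hup : u ^ p ∈ center G) : c ^ p ∈ cent u := by
  set z := c * u * c⁻¹ * u⁻¹ with hz
  have h1 : c * u * c⁻¹ = z * u := by rw [hz]; group
  have h2 := conj_pow_eq hc h1 p
  have h3 : z ^ p = 1 := by
    have h4 : (c * u * c⁻¹) ^ p = u ^ p := by
      rw [conj_pow]
      have h5 := Subgroup.mem_center_iff.1 hup c
      rw [h5]
      group
    rw [h1] at h4
    have hcomm : Commute z u := (Subgroup.mem_center_iff.1 hc u).symm
    rw [hcomm.mul_pow] at h4
    exact mul_right_cancel (h4.trans (one_mul _).symm)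
  rw [h3, one_mul] at h2
  rw [mem_cent_iff]
  calc u * c ^ p = (c ^ p * u * (c ^ p)⁻¹) * c ^ p := by rw [h2]
    _ = c ^ p * u := by group

variable [Finite G]

/-- Coprime lift: a `q`-element moving an `r`-element by a central element fixes it. -/
theorem coprime_lift {q r : ℕ} (hq : q.Prime) (hr : r.Prime) (hqr : q ≠ r) {c w z : G} (hc : El q c)
    (hw : El r w) (hz : z ∈ center G) (h : c * w * c⁻¹ = z * w) : z = 1 := by
  obtain ⟨a, ha⟩ := hc
  obtain ⟨b, hb⟩ := hw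
  have h1 := conj_pow_eq hz h (q ^ a)
  rw [← ha, pow_orderOf_eq_one] at h1
  have h2 : z ^ orderOf c = 1 := by
    have h3 : w = z ^ orderOf c * w := by simpa using h1
    exact mul_right_cancel (h3.symm.trans (one_mul w).symm)
  have h4 : z ^ r ^ b = 1 := by
    have h5 : (c * w * c⁻¹) ^ r ^ b = 1 := by
      rw [conj_pow, ← hb, pow_orderOf_eq_one]
      group
    rw [h] at h5
    have hcomm : Commute z w := (Subgroup.mem_center_iff.1 hz w).symm
    rw [hcomm.mul_pow, ← hb, pow_orderOf_eq_one, mul_one] at h5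
    rwa [hb] at h5
  have h6 : orderOf z ∣ q ^ a := ha ▸ orderOf_dvd_of_pow_eq_one h2
  have h7 : orderOf z ∣ r ^ b := orderOf_dvd_of_pow_eq_one h4
  have h8 : Nat.Coprime (q ^ a) (r ^ b) := Nat.Coprime.pow _ _ ((Nat.coprime_primes hq hr).2 hqr)
  have h9 : orderOf z = 1 := Nat.eq_one_of_dvd_coprimes h8 h6 h7
  exact orderOf_eq_one_iff.1 h9

/-- An element of a `p`-group, central modulo the centre, in a given normal subgroup. -/
theorem exists_central_elt {p : ℕ} [hpF : Fact p.Prime] {Q N : Subgroup G} (hQ : IsPGroup p Q) (hNQ : N ≤ Q)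
    (hN : ∀ c ∈ Q, ∀ x ∈ N, c * x * c⁻¹ ∈ N) (hNZ : ¬ N ≤ center G) :
    ∃ u ∈ N, u ∉ center G ∧ (∀ c ∈ Q, c * u * c⁻¹ * u⁻¹ ∈ center G) ∧ u ^ p ∈ center G := by
  classical
  have hp : p.Prime := hpF.out
  let A₀ : Subgroup Q := (center G).subgroupOf Q
  haveI hA₀ : A₀.Normal := by
    refine ⟨fun a ha g => ?_⟩
    rw [Subgroup.mem_subgroupOf] at ha ⊢
    have h1 := Subgroup.mem_center_iff.1 ha g
    have h2 : ((g * a * g⁻¹ : Q) : G) = (g : G) * a * (g : G)⁻¹ := rfl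
    rw [h2, h1]
    simpa using ha
  let π : Q →* Q ⧸ A₀ := QuotientGroup.mk' A₀
  have hπs : Function.Surjective π := QuotientGroup.mk'_surjective A₀
  have hπ1 : ∀ x : Q, π x = 1 ↔ (x : G) ∈ center G := by
    intro x
    rw [show π x = (x : Q ⧸ A₀) from rfl, QuotientGroup.eq_one_iff, Subgroup.mem_subgroupOf]
  haveI hpq : IsPGroup p (Q ⧸ A₀) := hQ.to_quotient A₀
  haveI : Group.IsNilpotent (Q ⧸ A₀) := hpq.isNilpotent
  let N₀ : Subgroup Q := N.subgroupOf Q
  haveI hN₀ : N₀.Normal := by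
    refine ⟨fun a ha g => ?_⟩
    rw [Subgroup.mem_subgroupOf] at ha ⊢
    exact hN g g.2 a ha
  haveI hNh : (N₀.map π).Normal := hN₀.map π hπs
  have hne : N₀.map π ≠ ⊥ := by
    obtain ⟨x, hx, hxZ⟩ := SetLike.not_le_iff_exists.1 hNZ
    intro hbot
    have h1 : π ⟨x, hNQ hx⟩ ∈ N₀.map π := ⟨_, by simpa [N₀, Subgroup.mem_subgroupOf] using hx, rfl⟩
    rw [hbot, Subgroup.mem_bot, hπ1] at h1
    exact hxZ h1
  have hinf := Cfsg.Agent.Lib.Basic.SylowUtil.inf_center_ne_bot_of_isNilpotent hne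
  obtain ⟨⟨w, hw⟩, hw1⟩ := Subgroup.ne_bot_iff_exists_ne_one.1 hinf
  have hw1 : w ≠ 1 := fun h => hw1 (Subtype.ext h)
  obtain ⟨k, hk⟩ := (IsPGroup.iff_orderOf.mp hpq) w
  have hk0 : k ≠ 0 := by
    rintro rfl
    rw [pow_zero] at hk
    exact hw1 (orderOf_eq_one_iff.1 hk)
  obtain ⟨j, rfl⟩ := Nat.exists_eq_succ_of_ne_zero hk0
  set w' := w ^ p ^ j with hw'
  have hw'1 : w' ≠ 1 := by
    intro h
    have h1 := orderOf_dvd_of_pow_eq_one h
    rw [hk] at h1
    have h2 := (Nat.pow_dvd_pow_iff_le_right hp.one_lt).1 h1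
    omega
  have hw'p : w' ^ p = 1 := by
    rw [hw', ← pow_mul, ← pow_succ, ← hk, pow_orderOf_eq_one]
  have hw'mem : w' ∈ N₀.map π ⊓ center (Q ⧸ A₀) := (N₀.map π ⊓ center (Q ⧸ A₀)).pow_mem hw _
  obtain ⟨x, hxN, hxw⟩ := hw'mem.1
  have hxN' : (x : G) ∈ N := by
    have : x ∈ N₀ := hxN
    exact Subgroup.mem_subgroupOf.1 this
  refine ⟨x, hxN', ?_, ?_, ?_⟩
  · intro h
    exact hw'1 (by rw [← hxw]; exact (hπ1 x).2 h)
  · intro c hc
    have h1 : π (⟨c, hc⟩ * x * (⟨c, hc⟩ : Q)⁻¹ * x⁻¹) = 1 := by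
      simp only [map_mul, map_inv, hxw]
      have h2 := Subgroup.mem_center_iff.1 hw'mem.2 (π ⟨c, hc⟩)
      rw [h2]
      group
    exact (hπ1 _).1 h1
  · have h1 : π (x ^ p) = 1 := by
      rw [map_pow, hxw, hw'p]
    exact (hπ1 _).1 h1

end Tools

/-! ### Elementary abelian groups acting fixed point freely -/

section Rank2

variable {A : Type v} [CommGroup A]

/-- The norm computation. -/
theorem rank2_norm {Z₀ : A → Prop} (h1 : Z₀ 1) (hmul : ∀ a b, Z₀ a → Z₀ b → Z₀ (a * b))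
    (hinv : ∀ a, Z₀ a → Z₀ a⁻¹) {q : ℕ} (hq : 0 < q)
    (c d : Monoid.End A) (hcd : Commute c d) (hcq : c ^ q = 1) (hdq : d ^ q = 1)
    (hq1 : ∀ w : A, Z₀ (w ^ q) → Z₀ w)
    (hfix1 : ∀ (j : ℕ) (w : A), (c * d ^ j) w = w → Z₀ w)
    (hfix2 : ∀ (i : ℕ), 0 < i → i < q → ∀ w : A, (d ^ i) w = w → Z₀ w)
    (hfixZ : ∀ (i : ℕ) (z : A), Z₀ z → (c ^ i) z = z) (w : A) : Z₀ w := by
  classical
  have hprod : ∀ (s : Finset ℕ) (f : ℕ → A), (∀ i ∈ s, Z₀ (f i)) → Z₀ (∏ i ∈ s, f i) := by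
    intro s f hf
    exact Finset.prod_induction _ Z₀ hmul h1 hf
  -- the norm
  let N : Monoid.End A → A := fun e => ∏ i ∈ Finset.range q, (e ^ i) w
  have hNfix : ∀ e : Monoid.End A, e ^ q = 1 → e (N e) = N e := by
    intro e heq
    have h2 : ∀ i, e ((e ^ i) w) = (e ^ (i + 1)) w := by
      intro i
      rw [pow_succ']
      rfl
    show e (∏ i ∈ Finset.range q, (e ^ i) w) = ∏ i ∈ Finset.range q, (e ^ i) w
    rw [map_prod]
    simp only [h2]
    have h3 := Finset.prod_range_succ (fun i => (e ^ i) w) q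
    have h4 := Finset.prod_range_succ' (fun i => (e ^ i) w) q
    rw [h3] at h4
    simp only [heq, pow_zero] at h4
    exact (mul_right_cancel h4).symm
  have hdj : ∀ j : ℕ, (d ^ j) ^ q = 1 := by
    intro j
    rw [← pow_mul, mul_comm, pow_mul, hdq, one_pow]
  have hcdj : ∀ j : ℕ, (c * d ^ j) ^ q = 1 := by
    intro j
    rw [(hcd.pow_right j).mul_pow, hcq, hdj, one_mul]
  have hN1 : ∀ j : ℕ, Z₀ (N (c * d ^ j)) := fun j => hfix1 j _ (hNfix _ (hcdj j))
  have hN2 : ∀ i : ℕ, 0 < i → i < q → Z₀ (N (d ^ i)) := fun i h1' h2' =>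
    hfix2 i h1' h2' _ (hNfix _ (hdj i))
  -- the double product
  have hdouble : ∏ j ∈ Finset.range q, N (c * d ^ j) =
      ∏ i ∈ Finset.range q, (c ^ i) (N (d ^ i)) := by
    show ∏ j ∈ Finset.range q, ∏ i ∈ Finset.range q, ((c * d ^ j) ^ i) w =
      ∏ i ∈ Finset.range q, (c ^ i) (∏ j ∈ Finset.range q, ((d ^ i) ^ j) w)
    rw [Finset.prod_comm]
    refine Finset.prod_congr rfl fun i _ => ?_
    rw [map_prod]
    refine Finset.prod_congr rfl fun j _ => ?_
    rw [(hcd.pow_right j).mul_pow, ← pow_mul, mul_comm j i, pow_mul]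
    rfl
  have hL : Z₀ (∏ j ∈ Finset.range q, N (c * d ^ j)) := hprod _ _ (fun j _ => hN1 j)
  rw [hdouble] at hL
  obtain ⟨q', rfl⟩ : ∃ q', q = q' + 1 := ⟨q - 1, by omega⟩
  rw [Finset.prod_range_succ'] at hL
  have hrest : Z₀ (∏ i ∈ Finset.range q', (c ^ (i + 1)) (N (d ^ (i + 1)))) := by
    apply hprod
    intro i hi
    have hi' : i + 1 < q' + 1 := by
      have := Finset.mem_range.1 hi
      omega
    rw [hfixZ _ _ (hN2 (i + 1) (by omega) hi')]
    exact hN2 (i + 1) (by omega) hi'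
  have h0 : Z₀ ((c ^ 0) (N (d ^ 0))) := by
    have h5 := hmul _ _ (hinv _ hrest) hL
    rwa [inv_mul_cancel_left] at h5
  apply hq1
  have h6 : N (d ^ 0) = w ^ (q' + 1) := by
    show ∏ i ∈ Finset.range (q' + 1), ((d ^ 0) ^ i) w = w ^ (q' + 1)
    simp
  rw [h6] at h0
  simpa using h0

/-- Cyclicity of the image of a fixed point free elementary abelian group. -/
theorem exists_eq_pow_of_fpf {Z₀ : A → Prop} (h1 : Z₀ 1) (hmul : ∀ a b, Z₀ a → Z₀ b → Z₀ (a * b))
    (hinv : ∀ a, Z₀ a → Z₀ a⁻¹) {q : ℕ} (hq : q.Prime)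
    (c d : Monoid.End A) (hcd : Commute c d) (hcq : c ^ q = 1) (hdq : d ^ q = 1)
    (hq1 : ∀ w : A, Z₀ (w ^ q) → Z₀ w)
    (hfp : ∀ (a b : ℕ) (w : A), (c ^ a * d ^ b) w = w → ¬ Z₀ w → c ^ a * d ^ b = 1)
    (hfixZ : ∀ (i : ℕ) (z : A), Z₀ z → (c ^ i) z = z) (hne : ∃ w : A, ¬ Z₀ w) (hc1 : c ≠ 1) :
    ∃ i : ℕ, d = c ^ i := by
  classical
  by_contra hno
  push Not at hno
  obtain ⟨w₀, hw₀⟩ := hne
  have hd1 : ∀ i : ℕ, 0 < i → i < q → d ^ i ≠ 1 := by
    intro i hi0 hiq h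
    have h2 : Nat.Coprime i q := by
      apply Nat.Coprime.symm
      rw [Nat.Prime.coprime_iff_not_dvd hq]
      intro hd
      have := Nat.le_of_dvd hi0 hd
      omega
    have h3 : orderOf d ∣ i := orderOf_dvd_of_pow_eq_one h
    have h4 : orderOf d ∣ q := orderOf_dvd_of_pow_eq_one hdq
    have h5 : orderOf d = 1 := Nat.eq_one_of_dvd_coprimes h2 h3 h4
    exact hno 0 (by rw [orderOf_eq_one_iff.1 h5, pow_zero])
  have hcd1 : ∀ j : ℕ, c * d ^ j ≠ 1 := by
    intro j h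
    by_cases hqj : q ∣ j
    · obtain ⟨k, rfl⟩ := hqj
      rw [pow_mul, hdq, one_pow, mul_one] at h
      exact hc1 h
    · have hcop : Nat.Coprime j q := ((Nat.Prime.coprime_iff_not_dvd hq).2 hqj).symm
      -- an inverse of `j` modulo `q`
      have hq1' : 1 < q := hq.one_lt
      obtain ⟨t, ht⟩ := Nat.exists_mul_mod_eq_one_of_coprime hcop hq1'
      have h2 : d ^ (j * t) = d := by
        have h3 : j * t = q * (j * t / q) + 1 := by
          have := Nat.div_add_mod (j * t) q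
          rw [ht.2] at this
          exact this.symm
        rw [h3, pow_succ, pow_mul, hdq, one_pow, one_mul]
      have h3 : (c * d ^ j) ^ t = 1 := by rw [h, one_pow]
      rw [(hcd.pow_right j).mul_pow, ← pow_mul, h2] at h3
      -- `d = c ^ (-t)`
      apply hno (t * (q - 1))
      have h4 : c ^ (t * (q - 1)) * c ^ t = 1 := by
        rw [← pow_add]
        have h5 : t * (q - 1) + t = t * q := by
          have : q - 1 + 1 = q := Nat.sub_add_cancel hq.one_lt.le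
          calc t * (q - 1) + t = t * (q - 1 + 1) := by ring
            _ = t * q := by rw [this]
        rw [h5, mul_comm, pow_mul, hcq, one_pow]
      calc d = (c ^ (t * (q - 1)) * c ^ t) * d := by rw [h4, one_mul]
        _ = c ^ (t * (q - 1)) * (c ^ t * d) := by rw [mul_assoc]
        _ = c ^ (t * (q - 1)) := by rw [h3, mul_one]
  apply hw₀
  refine rank2_norm h1 hmul hinv hq.pos c d hcd hcq hdq hq1 ?_ ?_ hfixZ w₀
  · intro j w hw
    by_contra hwZ
    apply hcd1 j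
    have := hfp 1 j w (by simpa using hw) hwZ
    simpa using this
  · intro i hi0 hiq w hw
    by_contra hwZ
    apply hd1 i hi0 hiq
    have := hfp 0 i w (by simpa using hw) hwZ
    simpa using this

end Rank2

end Cfsg.Agent.Lib.Nilpotent.OneMMN
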