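import Mathlib
import Cfsg.Agent.Lib.Nilpotent.OneMMN.Tools

/-!
# Tools: fixed point free action in a group; torsion parts of abelian subgroups
-/

set_option autoImplicit false

namespace Cfsg.Agent.Lib.Nilpotent.OneMMN

open Subgroup Cfsg.Agent.Lib.ClassSize.Basic Cfsg.Agent.Lib.ClassSize.Coprime

universe u

variable {G : Type u} [Group G] [Finite G]

/-- Conjugation action on a subgroup normalized by `Q`, as endomorphisms. -/
def conjEnd {Q W : Subgroup G} (hWn : ∀ c ∈ Q, ∀ w ∈ W, c * w * c⁻¹ ∈ W) : Q →* Monoid.End W where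
  toFun c :=
    { toFun := fun w => ⟨c * w * (c : G)⁻¹, hWn c c.2 w w.2⟩
      map_one' := Subtype.ext (by show (c : G) * 1 * (c : G)⁻¹ = 1; group)
      map_mul' := fun a b => Subtype.ext (by
        show (c : G) * (a * b) * (c : G)⁻¹ = ((c : G) * a * (c : G)⁻¹) * ((c : G) * b * (c : G)⁻¹)
        group) }
  map_one' := by
    apply MonoidHom.ext
    intro w
    apply Subtype.ext
    show ((1 : Q) : G) * w * ((1 : Q) : G)⁻¹ = w
    simp
  map_mul' := fun a b => by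
    apply MonoidHom.ext
    intro w
    apply Subtype.ext
    show ((a * b : Q) : G) * w * ((a * b : Q) : G)⁻¹ = (a : G) * ((b : G) * w * (b : G)⁻¹) * (a : G)⁻¹
    simp only [Subgroup.coe_mul]
    group

omit [Finite G] in
theorem conjEnd_apply {Q W : Subgroup G} (hWn : ∀ c ∈ Q, ∀ w ∈ W, c * w * c⁻¹ ∈ W) (c : Q) (w : W) :
    ((conjEnd hWn c w : W) : G) = c * w * (c : G)⁻¹ := rfl

/-- A fixed point free action of an elementary abelian section on an abelian coprime group: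
the section has order at most `q`. -/
theorem relIndex_le_of_fpf {q : ℕ} [hqF : Fact q.Prime] {Q Q₁ W : Subgroup G} (hQ₁Q : Q₁ ≤ Q)
    (hWab : ∀ a ∈ W, ∀ b ∈ W, a * b = b * a) (hWn : ∀ c ∈ Q, ∀ w ∈ W, c * w * c⁻¹ ∈ W)
    (hWZ : ¬ W ≤ center G) (hWq : Nat.Coprime (Nat.card W) q)
    (ha : ∀ c ∈ Q₁, ∀ w ∈ W, c * w * c⁻¹ = w)
    (hb : ∀ c ∈ Q, ∀ w ∈ W, w ∉ center G → c * w * c⁻¹ = w → c ∈ Q₁)
    (hcq : ∀ c ∈ Q, c ^ q ∈ Q₁) (hcomm : ∀ c ∈ Q, ∀ d ∈ Q, (d * c)⁻¹ * (c * d) ∈ Q₁) :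
    Q₁.relIndex Q ≤ q := by
  classical
  have hq : q.Prime := hqF.out
  by_cases hQQ : Q ≤ Q₁
  · rw [Subgroup.relIndex_eq_one.2 hQQ]
    exact hq.one_lt.le
  obtain ⟨c, hcQ, hcQ₁⟩ := SetLike.not_le_iff_exists.1 hQQ
  obtain ⟨w₀, hw₀, hw₀Z⟩ := SetLike.not_le_iff_exists.1 hWZ
  let φ := conjEnd hWn
  letI : CommGroup W := { (inferInstance : Group W) with
    mul_comm := fun a b => Subtype.ext (hWab a a.2 b b.2) }
  have hφQ₁ : ∀ x : Q, (x : G) ∈ Q₁ → φ x = 1 := by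
    intro x hx
    ext w
    exact ha x hx w w.2
  have hφfix : ∀ x : Q, φ x = 1 → (x : G) ∈ Q₁ := by
    intro x hx
    apply hb x x.2 w₀ hw₀ hw₀Z
    have h1 : φ x ⟨w₀, hw₀⟩ = ⟨w₀, hw₀⟩ := by
      rw [hx]
      rfl
    exact congrArg Subtype.val h1
  have hkey : ∀ d ∈ Q, ∃ i : ℕ, (c ^ i)⁻¹ * d ∈ Q₁ := by
    intro d hdQ
    let c' : Q := ⟨c, hcQ⟩
    let d' : Q := ⟨d, hdQ⟩
    have hC : Commute (φ c') (φ d') := by
      show φ c' * φ d' = φ d' * φ c'
      rw [← map_mul, ← map_mul]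
      have h1 : (d' * c')⁻¹ * (c' * d') ∈ Q₁.subgroupOf Q := by
        rw [Subgroup.mem_subgroupOf]
        exact hcomm c hcQ d hdQ
      have h2 := hφQ₁ _ (Subgroup.mem_subgroupOf.1 h1)
      have h3 : c' * d' = (d' * c') * ((d' * c')⁻¹ * (c' * d')) := by group
      rw [h3, map_mul, h2, mul_one]
    have hpow : ∀ x : Q, φ x ^ q = 1 := by
      intro x
      rw [← map_pow]
      exact hφQ₁ _ (by simpa using hcq x x.2)
    have hZ₀1 : ((1 : W) : G) ∈ center G := one_mem _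
    obtain ⟨i, hi⟩ := exists_eq_pow_of_fpf (A := W) (Z₀ := fun w => (w : G) ∈ center G) hZ₀1
      (fun a b ha hb => (center G).mul_mem ha hb) (fun a ha => (center G).inv_mem ha)
      hq (φ c') (φ d') hC (hpow c') (hpow d')
      (by
        intro w hw
        have hw' : ((w : G)) ^ q ∈ center G := by simpa using hw
        have hor : Nat.Coprime (orderOf (w : G)) q := by
          have h1 : orderOf (w : G) ∣ Nat.card W := by
            rw [Subgroup.orderOf_coe]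
            exact orderOf_dvd_natCard w
          exact hWq.coprime_dvd_left h1
        obtain ⟨k, hk⟩ : ∃ k : ℕ, ((w : G) ^ q) ^ k = w := by
          have hq1 : Nat.Coprime (orderOf (w : G)) q := hor
          obtain ⟨k, hk⟩ := exists_pow_eq_self_of_coprime hq1.symm
          exact ⟨k, hk⟩
        rw [← hk]
        exact (center G).pow_mem hw' k)
      (by
        intro a b w hw hwZ
        rw [← map_pow, ← map_pow, ← map_mul] at hw ⊢
        apply hφQ₁
        exact hb _ (c' ^ a * d' ^ b).2 w w.2 hwZ (congrArg Subtype.val hw))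
      (by
        intro i z hz
        rw [← map_pow]
        apply Subtype.ext
        have h1 := Subgroup.mem_center_iff.1 hz ((c' ^ i : Q) : G)
        show ((c' ^ i : Q) : G) * z * ((c' ^ i : Q) : G)⁻¹ = z
        rw [h1]
        group)
      ⟨⟨w₀, hw₀⟩, hw₀Z⟩
      (by
        intro h
        exact hcQ₁ (hφfix c' h))
    refine ⟨i, ?_⟩
    have h1 : φ ((c' ^ i)⁻¹ * d') = 1 := by
      rw [map_mul, hi, ← map_pow, ← map_mul, inv_mul_cancel, map_one]
    have h2 := hφfix _ h1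
    simpa [c', d'] using h2
  -- the count
  let f : Fin q → Q ⧸ Q₁.subgroupOf Q := fun i => ((⟨c, hcQ⟩ : Q) ^ (i : ℕ) : Q)
  have hf : Function.Surjective f := by
    intro x
    induction x using QuotientGroup.induction_on with
    | H d =>
      obtain ⟨i, hi⟩ := hkey d d.2
      refine ⟨⟨i % q, Nat.mod_lt _ hq.pos⟩, ?_⟩
      show ((((⟨c, hcQ⟩ : Q) ^ (i % q) : Q)) : Q ⧸ Q₁.subgroupOf Q) = _
      rw [QuotientGroup.eq, Subgroup.mem_subgroupOf]
      have h1 : c ^ i = c ^ (i % q) * (c ^ q) ^ (i / q) := by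
        rw [← pow_mul, ← pow_add, Nat.mod_add_div]
      have h2 : (c ^ (i % q))⁻¹ * d = (c ^ q) ^ (i / q) * ((c ^ i)⁻¹ * d) := by
        rw [h1, mul_inv_rev, mul_assoc ((c ^ q) ^ (i / q))⁻¹, mul_inv_cancel_left]
      simp only [Subgroup.coe_mul, Subgroup.coe_inv, Subgroup.coe_pow]
      rw [h2]
      exact Q₁.mul_mem (Q₁.pow_mem (hcq c hcQ) _) hi
  have hcard := Nat.card_le_card_of_surjective f hf
  rwa [Nat.card_fin] at hcard

/-- The number of elements modulo a prime, via fixed points. -/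
theorem card_modEq_of_fix {q : ℕ} [hqF : Fact q.Prime] {Q W W₀ : Subgroup G} (hQ : IsPGroup q Q)
    (hWn : ∀ c ∈ Q, ∀ w ∈ W, c * w * c⁻¹ ∈ W) (hW₀W : W₀ ≤ W)
    (h0 : ∀ c ∈ Q, ∀ z ∈ W₀, c * z * c⁻¹ = z)
    (h1 : ∀ w ∈ W, (∀ c ∈ Q, c * w * c⁻¹ = w) → w ∈ W₀) :
    Nat.card W ≡ Nat.card W₀ [MOD q] := by
  classical
  letI : MulAction Q W :=
    { smul := fun c w => ⟨c * w * (c : G)⁻¹, hWn c c.2 w w.2⟩
      one_smul := fun w => Subtype.ext (by show (1 : G) * w * (1 : G)⁻¹ = w; simp)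
      mul_smul := fun a b w => Subtype.ext (by
        show ((a : G) * b) * w * ((a : G) * b)⁻¹ = a * (b * w * (b : G)⁻¹) * (a : G)⁻¹
        group) }
  have h2 := hQ.card_modEq_card_fixedPoints W
  have h3 : Nat.card (MulAction.fixedPoints Q W) = Nat.card W₀ := by
    apply Nat.card_congr
    refine
      { toFun := fun x => ⟨x.1, h1 x.1 x.1.2 (fun c hc => ?_)⟩
        invFun := fun z => ⟨⟨z, hW₀W z.2⟩, fun c => Subtype.ext (h0 c c.2 z z.2)⟩
        left_inv := fun x => rfl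
        right_inv := fun z => rfl }
    exact congrArg Subtype.val (x.2 ⟨c, hc⟩)
  rwa [h3] at h2

/-! ### Torsion parts of abelian subgroups -/

/-- The elements of `B` with `x ^ k = 1`, `B` abelian. -/
def tors (B : Subgroup G) (hB : ∀ a ∈ B, ∀ b ∈ B, a * b = b * a) (k : ℕ) : Subgroup G where
  carrier := {x | x ∈ B ∧ x ^ k = 1}
  one_mem' := ⟨one_mem _, one_pow _⟩
  mul_mem' := by
    intro a b ha hb
    refine ⟨B.mul_mem ha.1 hb.1, ?_⟩
    have hc : Commute a b := hB a ha.1 b hb.1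
    rw [hc.mul_pow, ha.2, hb.2, one_mul]
  inv_mem' := by
    intro a ha
    exact ⟨B.inv_mem ha.1, by rw [inv_pow, ha.2, inv_one]⟩

omit [Finite G] in
theorem mem_tors {B : Subgroup G} {hB : ∀ a ∈ B, ∀ b ∈ B, a * b = b * a} {k : ℕ} {x : G} :
    x ∈ tors B hB k ↔ x ∈ B ∧ x ^ k = 1 := Iff.rfl

theorem pow_ordProj_eq_one_iff {p : ℕ} (hp : p.Prime) {x : G} :
    x ^ ordProj[p] (Nat.card G) = 1 ↔ El p x := by
  constructor
  · intro h
    obtain ⟨j, -, hj⟩ := (Nat.dvd_prime_pow hp).1 (orderOf_dvd_of_pow_eq_one h)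
    exact ⟨j, hj⟩
  · rintro ⟨e, he⟩
    apply orderOf_dvd_iff_pow_eq_one.1
    rw [he]
    have h1 : p ^ e ∣ Nat.card G := he ▸ orderOf_dvd_natCard x
    exact pow_dvd_pow _ ((hp.pow_dvd_iff_le_factorization Nat.card_pos.ne').1 h1)

theorem pow_ordCompl_eq_one_iff {p : ℕ} (hp : p.Prime) {x : G} :
    x ^ ordCompl[p] (Nat.card G) = 1 ↔ Nat.Coprime (orderOf x) p := by
  have hG : Nat.card G ≠ 0 := Nat.card_pos.ne'
  constructor
  · intro h
    exact (Nat.coprime_ordCompl hp hG).symm.coprime_dvd_left (orderOf_dvd_of_pow_eq_one h)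
  · intro h
    apply orderOf_dvd_iff_pow_eq_one.1
    have h1 : orderOf x ∣ ordProj[p] (Nat.card G) * ordCompl[p] (Nat.card G) := by
      rw [Nat.ordProj_mul_ordCompl_eq_self]
      exact orderOf_dvd_natCard x
    exact (Nat.Coprime.pow_right _ h).dvd_of_dvd_mul_left h1

theorem isPGroup_tors {p : ℕ} (hp : p.Prime) {B : Subgroup G} {hB : ∀ a ∈ B, ∀ b ∈ B, a * b = b * a} :
    IsPGroup p (tors B hB (ordProj[p] (Nat.card G))) := by
  haveI : Fact p.Prime := ⟨hp⟩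
  rw [IsPGroup.iff_orderOf]
  rintro ⟨x, hx⟩
  obtain ⟨e, he⟩ := (pow_ordProj_eq_one_iff hp).1 hx.2
  exact ⟨e, by rw [← he]; exact Subgroup.orderOf_mk x _⟩

theorem coprime_card_tors {p : ℕ} (hp : p.Prime) {B : Subgroup G}
    {hB : ∀ a ∈ B, ∀ b ∈ B, a * b = b * a} :
    Nat.Coprime (Nat.card (tors B hB (ordCompl[p] (Nat.card G)))) p := by
  haveI : Fact p.Prime := ⟨hp⟩
  rw [Nat.coprime_comm, Nat.Prime.coprime_iff_not_dvd hp]
  intro hd
  obtain ⟨x, hx⟩ := exists_prime_orderOf_dvd_card' p hd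
  have h1 : (x : G) ∈ tors B hB (ordCompl[p] (Nat.card G)) := x.2
  have h2 := (pow_ordCompl_eq_one_iff hp).1 h1.2
  rw [Subgroup.orderOf_coe, hx] at h2
  exact hp.one_lt.ne' (by simpa using h2)

omit [Finite G] in
theorem conj_mem_tors {B : Subgroup G} {hB : ∀ a ∈ B, ∀ b ∈ B, a * b = b * a} {k : ℕ} {c x : G}
    (hc : ∀ b ∈ B, c * b * c⁻¹ ∈ B) (hx : x ∈ tors B hB k) : c * x * c⁻¹ ∈ tors B hB k := by
  refine ⟨hc x hx.1, ?_⟩
  rw [conj_pow, hx.2]
  group

end Cfsg.Agent.Lib.Nilpotent.OneMMN
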