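import Mathlib
import Cfsg.Agent.Lib.Nilpotent.OneMMN.Tools2

/-!
# Class sizes `1, m, m n`: `m` is a prime power
-/

set_option autoImplicit false

namespace Cfsg.Agent.Lib.Nilpotent.OneMMN

open Subgroup Cfsg.Agent.Lib.ClassSize.Basic Cfsg.Agent.Lib.ClassSize.Coprime
open scoped Pointwise

universe u

variable {G : Type u} [Group G] [Finite G]

theorem card_mul_relIndex {Q₁ Q : Subgroup G} (h : Q₁ ≤ Q) :
    Nat.card Q₁ * Q₁.relIndex Q = Nat.card Q := by
  have h1 := (Q₁.subgroupOf Q).card_mul_index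
  rwa [Nat.card_congr (Subgroup.subgroupOfEquivOfLe h).toEquiv] at h1

/-- The order of the intersection of a Sylow subgroup with the centre. -/
theorem card_sylow_inf_center {q : ℕ} [Fact q.Prime] (Q : Sylow q G) :
    Nat.card ((Q : Subgroup G) ⊓ center G : Subgroup G) = ordProj[q] (Nat.card (center G)) := by
  apply Nat.dvd_antisymm
  · exact card_dvd_ordProj inf_le_right (Q.2.to_le inf_le_left)
  · obtain ⟨S, -, hSZ, hSp, hSc⟩ := exists_sylIn (p := q) (center G) ⊥ bot_le IsPGroup.of_bot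
    haveI : S.Normal := by
      refine ⟨fun a ha g => ?_⟩
      have := Subgroup.mem_center_iff.1 (hSZ ha) g
      rwa [this, mul_inv_cancel_right]
    have h1 : S ≤ (Q : Subgroup G) ⊓ center G := le_inf (hSp.le_sylow_of_normal Q) hSZ
    rw [← hSc]
    exact Subgroup.card_dvd_of_le h1

namespace Hyp

variable {m n : ℕ} (H : Hyp G m n)
include H

theorem ordProj_index_of_m {p : ℕ} (hp : p.Prime) (hpm : p ∣ m) {K : Subgroup G}
    (hK : K.index = m ∨ K.index = m * n) : ordProj[p] K.index = ordProj[p] m := by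
  have hm0 : m ≠ 0 := by have := H.hm; omega
  have hn0 : n ≠ 0 := by have := H.hn; omega
  rcases hK with h | h
  · rw [h]
  · rw [h, Nat.ordProj_mul p hm0 hn0, ordProj_of_not_dvd H (H.not_dvd_n hp hpm), mul_one]

theorem exists_noncentral_el {p : ℕ} [Fact p.Prime] (hpm : p ∣ m) : ∃ v : G, El p v ∧ v ∉ center G := by
  obtain ⟨x₀, hx₀⟩ := H.exm
  exact exists_el_not_center_of_dvd (D := G) (x := x₀) (by rw [hx₀]; exact hpm)

theorem lt_ordProj_of_index {p : ℕ} [hpF : Fact p.Prime] (hpm : p ∣ m) {K : Subgroup G}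
    (hK : K.index = m ∨ K.index = m * n) :
    ordProj[p] (Nat.card (center G)) < ordProj[p] (Nat.card K) := by
  obtain ⟨v, hvE, hvZ⟩ := H.exists_noncentral_el hpm
  exact lt_ordProj_of_el hvE hvZ (by
    rw [H.ordProj_index_of_m hpF.out hpm hK, H.ordProj_cs_of_dvd_m hpF.out hpm hvZ])

theorem exists_el_mem_of_index {p : ℕ} [hpF : Fact p.Prime] (hpm : p ∣ m) {K : Subgroup G}
    (hK : K.index = m ∨ K.index = m * n) : ∃ c ∈ K, El p c ∧ c ∉ center G := by
  obtain ⟨v, hvE, hvZ⟩ := H.exists_noncentral_el hpm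
  exact exists_el_mem_of_el hvE hvZ (by
    rw [H.ordProj_index_of_m hpF.out hpm hK, H.ordProj_cs_of_dvd_m hpF.out hpm hvZ])

theorem cent_index_of_not_center {g : G} (hg : g ∉ center G) :
    (cent g).index = m ∨ (cent g).index = m * n := H.cs_noncentral hg

/-- A `p₁`-element central modulo the centre: its centralizer has index `p₁` in the Sylow
subgroup, and `p₁` divides the size of the `p₂`-part minus one. -/
theorem tp1 {p₁ p₂ : ℕ} [hF1 : Fact p₁.Prime] [hF2 : Fact p₂.Prime] (hne : p₁ ≠ p₂) (hp₁m : p₁ ∣ m)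
    (hp₂m : p₂ ∣ m) (P₁ : Sylow p₁ G) {u : G} (huP : u ∈ (P₁ : Subgroup G)) (huZ : u ∉ center G)
    (hucen : ∀ c ∈ (P₁ : Subgroup G), c * u * c⁻¹ * u⁻¹ ∈ center G) (hup : u ^ p₁ ∈ center G)
    (hcomm : ∀ a ∈ cent u, ∀ b ∈ cent u, a * b = b * a)
    (hcc : ∀ c ∈ cent u, El p₂ c → c ∉ center G → cent c = cent u) :
    ordProj[p₁] m = p₁ ∧ Nat.card ((P₁ : Subgroup G) ⊓ cent u : Subgroup G) * p₁ = Nat.card P₁ ∧
    ∃ t : ℕ, t * ordProj[p₂] (Nat.card (center G)) * ordProj[p₂] m = ordProj[p₂] (Nat.card G) ∧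
      t ≡ 1 [MOD p₁] ∧ t ≠ 1 := by
  classical
  have hp₁ : p₁.Prime := hF1.out
  have hp₂ : p₂.Prime := hF2.out
  set B := cent u with hB
  set Q₁ : Subgroup G := (P₁ : Subgroup G) ⊓ B with hQ₁
  set W := tors B hcomm (ordProj[p₂] (Nat.card G)) with hW
  have hWp : IsPGroup p₂ W := isPGroup_tors hp₂
  have hcsu : cs u = m ∨ cs u = m * n := H.cs_noncentral huZ
  -- normalizer
  have hnorm : ∀ c ∈ (P₁ : Subgroup G), ∀ b ∈ B, c * b * c⁻¹ ∈ B := fun c hc b hb =>
    conj_mem_cent_of_central (hucen c hc) hb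
  have hWn : ∀ c ∈ (P₁ : Subgroup G), ∀ w ∈ W, c * w * c⁻¹ ∈ W := fun c hc w hw =>
    conj_mem_tors (hnorm c hc) hw
  have hmemW : ∀ {w : G}, w ∈ B → El p₂ w → w ∈ W := fun hw he =>
    ⟨hw, (pow_ordProj_eq_one_iff hp₂).2 he⟩
  obtain ⟨e₀, he₀B, he₀E, he₀Z⟩ := H.exists_el_mem_of_index hp₂m (K := B) hcsu
  have hWZ : ¬ W ≤ center G := fun h => he₀Z (h (hmemW he₀B he₀E))
  have hWq : Nat.Coprime (Nat.card W) p₁ := by
    obtain ⟨k, hk⟩ := IsPGroup.iff_card.1 hWp
    rw [hk]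
    exact Nat.Coprime.pow_left _ ((Nat.coprime_primes hp₂ hp₁).2 hne.symm)
  have hb : ∀ c ∈ (P₁ : Subgroup G), ∀ w ∈ W, w ∉ center G → c * w * c⁻¹ = w → c ∈ Q₁ := by
    intro c hc w hw hwZ hfix
    have hwE : El p₂ w := (pow_ordProj_eq_one_iff hp₂).1 hw.2
    have h1 : cent w = B := hcc w hw.1 hwE hwZ
    refine ⟨hc, ?_⟩
    show c ∈ B
    rw [← h1, mem_cent_iff]
    calc w * c = (c * w * c⁻¹) * c := by rw [hfix]
      _ = c * w := by group
  have hWab : ∀ a ∈ W, ∀ b ∈ W, a * b = b * a := fun a ha b hb => hcomm a ha.1 b hb.1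
  have hfa : ∀ c ∈ Q₁, ∀ w ∈ W, c * w * c⁻¹ = w := by
    intro c hc w hw
    have h1 : c * w = w * c := hcomm c hc.2 w hw.1
    rw [h1]
    group
  have hfc : ∀ c ∈ (P₁ : Subgroup G), c ^ p₁ ∈ Q₁ := fun c hc =>
    ⟨(P₁ : Subgroup G).pow_mem hc _, pow_mem_of_central (hucen c hc) hup⟩
  have hfd : ∀ c ∈ (P₁ : Subgroup G), ∀ d ∈ (P₁ : Subgroup G), (d * c)⁻¹ * (c * d) ∈ Q₁ := fun c hc d hd =>
    ⟨(P₁ : Subgroup G).mul_mem ((P₁ : Subgroup G).inv_mem ((P₁ : Subgroup G).mul_mem hd hc))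
      ((P₁ : Subgroup G).mul_mem hc hd), comm_mem_of_central (hucen c hc) (hucen d hd)⟩
  have hle : Q₁.relIndex (P₁ : Subgroup G) ≤ p₁ :=
    relIndex_le_of_fpf (q := p₁) (Q := (P₁ : Subgroup G)) (Q₁ := Q₁) (W := W) inf_le_left
      hWab hWn hWZ hWq hfa hb hfc hfd
  -- the `p₁`-part
  have hm0 : m ≠ 0 := by have := H.hm; omega
  have hQ₁p : IsPGroup p₁ Q₁ := P₁.2.to_le inf_le_left
  have hdv : Nat.card Q₁ * ordProj[p₁] m ∣ Nat.card P₁ := by
    have h1 := card_dvd_ordProj (inf_le_right : Q₁ ≤ B) hQ₁p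
    have h2 := ordProj_card_mul_index (p := p₁) B
    rw [H.ordProj_index_of_m hp₁ hp₁m (K := B) hcsu] at h2
    rw [card_sylow, ← h2]
    exact Nat.mul_dvd_mul_right h1 _
  have hcard := card_mul_relIndex (inf_le_left : Q₁ ≤ (P₁ : Subgroup G))
  have hpos : 0 < Nat.card Q₁ := Nat.card_pos
  have hdv2 : ordProj[p₁] m ∣ Q₁.relIndex (P₁ : Subgroup G) := by
    rw [← hcard] at hdv
    exact Nat.dvd_of_mul_dvd_mul_left hpos hdv
  have hrel0 : 0 < Q₁.relIndex (P₁ : Subgroup G) := by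
    rcases Nat.eq_zero_or_pos (Q₁.relIndex (P₁ : Subgroup G)) with h | h
    · rw [h] at hcard
      have : 0 < Nat.card P₁ := Nat.card_pos
      simp only [mul_zero] at hcard
      omega
    · exact h
  have hle2 : ordProj[p₁] m ≤ Q₁.relIndex (P₁ : Subgroup G) := Nat.le_of_dvd hrel0 hdv2
  have hp₁le : p₁ ≤ ordProj[p₁] m :=
    Nat.le_of_dvd (Nat.ordProj_pos _ _) (Nat.dvd_ordProj_of_dvd hm0 hp₁ hp₁m)
  have hmp : ordProj[p₁] m = p₁ := by omega
  have hrel : Q₁.relIndex (P₁ : Subgroup G) = p₁ := by omega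
  refine ⟨hmp, by have h := hcard; rw [hrel] at h; exact h, ?_⟩
  -- the count
  have hex : ∃ c ∈ (P₁ : Subgroup G), c ∉ Q₁ := by
    by_contra hno
    push Not at hno
    have : Q₁.relIndex (P₁ : Subgroup G) = 1 := Subgroup.relIndex_eq_one.2 hno
    have := hp₁.one_lt
    omega
  obtain ⟨c, hcP, hcQ⟩ := hex
  have hzp : IsPGroup p₁ (zpowers c) := (El.of_mem P₁.2 hcP).isPGroup
  have hzle : zpowers c ≤ (P₁ : Subgroup G) := zpowers_le.2 hcP
  set W₀ : Subgroup G := W ⊓ center G with hW₀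
  have hmod : Nat.card W ≡ Nat.card W₀ [MOD p₁] := by
    apply card_modEq_of_fix hzp (fun c' hc' w hw => hWn c' (hzle hc') w hw) inf_le_left
    · intro c' _ z hz
      have h1 := Subgroup.mem_center_iff.1 hz.2 c'
      rw [h1]
      group
    · intro w hw hfix
      refine ⟨hw, ?_⟩
      by_contra hwZ
      exact hcQ (hb c hcP w hw hwZ (hfix c (mem_zpowers c)))
  -- orders
  have hcW : Nat.card W = ordProj[p₂] (Nat.card B) := by
    apply Nat.dvd_antisymm (card_dvd_ordProj (show W ≤ B from fun x hx => hx.1) hWp)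
    obtain ⟨S, -, hSB, hSp, hSc⟩ := exists_sylIn (p := p₂) B ⊥ bot_le IsPGroup.of_bot
    rw [← hSc]
    exact Subgroup.card_dvd_of_le (fun x hx => hmemW (hSB hx) (El.of_mem hSp hx))
  have hcW₀ : Nat.card W₀ = ordProj[p₂] (Nat.card (center G)) := by
    apply Nat.dvd_antisymm (card_dvd_ordProj inf_le_right (hWp.to_le inf_le_left))
    obtain ⟨S, -, hSZ, hSp, hSc⟩ := exists_sylIn (p := p₂) (center G) ⊥ bot_le IsPGroup.of_bot
    rw [← hSc]
    exact Subgroup.card_dvd_of_le (fun x hx => ⟨hmemW (center_le_cent u (hSZ hx)) (El.of_mem hSp hx), hSZ hx⟩)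
  have hcardW := card_mul_relIndex (inf_le_left : W₀ ≤ W)
  refine ⟨W₀.relIndex W, ?_, ?_, ?_⟩
  · have h2 := ordProj_card_mul_index (p := p₂) B
    rw [H.ordProj_index_of_m hp₂ hp₂m (K := B) hcsu] at h2
    rw [← h2, ← hcW, ← hcW₀, ← hcardW]
    ring
  · have hz : Nat.Coprime (Nat.card W₀) p₁ := hWq.coprime_dvd_left (Subgroup.card_dvd_of_le inf_le_left)
    rw [← hcardW] at hmod
    have h3 : W₀.relIndex W * Nat.card W₀ ≡ 1 * Nat.card W₀ [MOD p₁] := by
      rw [one_mul, mul_comm]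
      exact hmod
    exact Nat.ModEq.cancel_right_of_coprime (by rwa [Nat.coprime_comm] at hz) h3
  · intro h1
    have : W ≤ W₀ := Subgroup.relIndex_eq_one.1 h1
    exact hWZ (fun x hx => (this hx).2)

/-- Two primes dividing `m`: a contradiction. -/
theorem false_of_two_primes {p q : ℕ} [hpF : Fact p.Prime] [hqF : Fact q.Prime] (hqp : q < p) (hpm : p ∣ m)
    (hqm : q ∣ m)
    (HH : ∀ s : ℕ, s.Prime → s ∣ m → ∀ e : G, El s e → e ∉ center G →
      (∀ a ∈ cent e, ∀ b ∈ cent e, a * b = b * a) ∧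
      ∀ s' : ℕ, s'.Prime → s' ∣ m → ∀ c ∈ cent e, El s' c → c ∉ center G → cent c = cent e)
    (Cov : ∃ y : G, cs y = m ∧ ∀ b ∈ cent y, El q b → b ∉ center G → cent b ≤ cent y) : False := by
  classical
  have hp : p.Prime := hpF.out
  have hq : q.Prime := hqF.out
  have hne : p ≠ q := by omega
  obtain ⟨Q⟩ := (inferInstance : Nonempty (Sylow q G))
  obtain ⟨P⟩ := (inferInstance : Nonempty (Sylow p G))
  -- central elements
  have hcentral : ∀ (r : ℕ) [Fact r.Prime] (R : Sylow r G), r ∣ m → ∃ u ∈ (R : Subgroup G), u ∉ center G ∧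
      (∀ c ∈ (R : Subgroup G), c * u * c⁻¹ * u⁻¹ ∈ center G) ∧ u ^ r ∈ center G := by
    intro r hrF R hrm
    apply exists_central_elt R.2 le_rfl
    · intro c hc x hx
      exact (R : Subgroup G).mul_mem ((R : Subgroup G).mul_mem hc hx) ((R : Subgroup G).inv_mem hc)
    · intro hle
      obtain ⟨x₀, hx₀⟩ := H.exm
      exact not_dvd_cs_of_sylow_le R (le_trans hle (center_le_cent x₀)) (by rw [hx₀]; exact hrm)
  obtain ⟨u, huQ, huZ, hucen, hup⟩ := hcentral q Q hqm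
  obtain ⟨u', hu'P, hu'Z, hu'cen, hu'p⟩ := hcentral p P hpm
  have huE : El q u := El.of_mem Q.2 huQ
  have hu'E : El p u' := El.of_mem P.2 hu'P
  obtain ⟨hcomm, hcc⟩ := HH q hq hqm u huE huZ
  obtain ⟨hcomm', hcc'⟩ := HH p hp hpm u' hu'E hu'Z
  obtain ⟨hmq, hAcard, -⟩ := H.tp1 (p₂ := p) (Ne.symm hne) hqm hpm Q huQ huZ hucen hup hcomm
    (fun c hc hce hcZ => hcc p hp hpm c hc hce hcZ)
  obtain ⟨-, -, t, ht, htmod, ht1⟩ := H.tp1 (p₂ := q) hne hpm hqm P hu'P hu'Z hu'cen hu'p hcomm'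
    (fun c hc hce hcZ => hcc' q hq hqm c hc hce hcZ)
  set ζ := ordProj[q] (Nat.card (center G)) with hζ
  set A₁ : Subgroup G := (Q : Subgroup G) ⊓ cent u with hA₁
  have hζpos : 0 < ζ := Nat.ordProj_pos _ _
  have hQcard : Nat.card Q = ordProj[q] (Nat.card G) := card_sylow Q
  have htA : Nat.card A₁ = t * ζ := by
    have h1 : t * ζ * q = Nat.card A₁ * q := by
      rw [hAcard, hQcard, ← ht, hmq]
    exact (Nat.eq_of_mul_eq_mul_right hq.pos h1).symm
  -- `t > q`
  have htq : q < t := by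
    have h1 : p ∣ t - 1 := by
      have ht0 : 1 ≤ t := by
        rcases Nat.eq_zero_or_pos t with h | h
        · subst h
          simp only [zero_mul] at ht
          have : 0 < ordProj[q] (Nat.card G) := Nat.ordProj_pos _ _
          omega
        · exact h
      exact (Nat.modEq_iff_dvd' ht0).1 htmod.symm
    have h2 : 0 < t - 1 := by
      have ht0 : t ≠ 0 := by
        rintro rfl
        simp only [zero_mul] at ht
        have : 0 < ordProj[q] (Nat.card G) := Nat.ordProj_pos _ _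
        omega
      omega
    have h3 := Nat.le_of_dvd h2 h1
    omega
  -- one class of centralizers
  have hclass : ∀ e : G, El q e → e ∉ center G → ∃ x : G, cent e = conjS x (cent u) := by
    intro e heE heZ
    obtain ⟨S, -, hSe, hSp, hSc⟩ := exists_sylIn (p := q) (cent e) ⊥ bot_le IsPGroup.of_bot
    obtain ⟨x, hx⟩ := exists_conjS_le hSp Q
    set S' := conjS x S with hS'
    have hS'c : Nat.card S' * q = Nat.card Q := by
      rw [hS', card_conjS, hSc, hQcard]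
      have h2 := ordProj_card_mul_index (p := q) (cent e)
      rw [H.ordProj_index_of_m hq hqm (K := cent e) (H.cs_noncentral heZ), hmq] at h2
      exact h2
    have hS'A : Nat.card S' = Nat.card A₁ :=
      Nat.eq_of_mul_eq_mul_right hq.pos (hS'c.trans hAcard.symm)
    have hexe : ∃ e' ∈ S' ⊓ A₁, e' ∉ center G := by
      by_contra hno
      push Not at hno
      have h1 : (S' ⊓ A₁ : Subgroup G) ≤ center G := hno
      have hp1 : IsPGroup q (S' ⊓ A₁ : Subgroup G) := (isPGroup_conjS hSp).to_le inf_le_left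
      have h2 : Nat.card (S' ⊓ A₁ : Subgroup G) ≤ ζ :=
        Nat.le_of_dvd hζpos (card_dvd_ordProj h1 hp1)
      have h3 := Cfsg.Agent.Lib.Basic.ProductCard.ncard_mul_mul_card_inf S' A₁
      have h4 : ((S' : Set G) * (A₁ : Set G)).ncard ≤ Nat.card Q := by
        have h5 : ((S' : Set G) * (A₁ : Set G)) ⊆ ((Q : Subgroup G) : Set G) := by
          rintro _ ⟨a, ha, b, hb, rfl⟩
          exact (Q : Subgroup G).mul_mem (hx ha) hb.1
        have h6 := Set.ncard_le_ncard h5 (Set.toFinite _)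
        exact h6.trans (Nat.card_coe_set_eq _).symm.le
      have h7 : Nat.card A₁ * Nat.card A₁ ≤ Nat.card Q * ζ := by
        calc Nat.card A₁ * Nat.card A₁ = Nat.card S' * Nat.card A₁ := by rw [hS'A]
          _ = ((S' : Set G) * (A₁ : Set G)).ncard * Nat.card (S' ⊓ A₁ : Subgroup G) := h3.symm
          _ ≤ Nat.card Q * ζ := Nat.mul_le_mul h4 h2
      rw [← hAcard, htA] at h7
      have h8 : t * ζ * (t * ζ) ≤ t * ζ * (q * ζ) := by nlinarith
      have h9 : 0 < t * ζ := by rw [← htA]; exact Nat.card_pos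
      have h10 := Nat.le_of_mul_le_mul_left h8 h9
      have h11 : t ≤ q := Nat.le_of_mul_le_mul_right h10 hζpos
      omega
    obtain ⟨e', he'mem, he'Z⟩ := hexe
    have he'E : El q e' := El.of_mem (isPGroup_conjS hSp) he'mem.1
    have hce' : cent e' = cent u := hcc q hq hqm e' he'mem.2.2 he'E he'Z
    have he''S : x⁻¹ * e' * x ∈ S := mem_conjS.1 he'mem.1
    have he''Z : x⁻¹ * e' * x ∉ center G := by
      intro h
      have h5 := Subgroup.mem_center_iff.1 h x
      apply he'Z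
      have h6 : e' = x⁻¹ * e' * x := by
        have h8 : x * (x⁻¹ * e' * x) * x⁻¹ = e' := by group
        rw [h5] at h8
        simpa using h8.symm
      rw [h6]
      exact h
    have hce'' : cent (x⁻¹ * e' * x) = cent e :=
      (HH q hq hqm e heE heZ).2 q hq hqm _ (hSe he''S) (El.of_mem hSp he''S) he''Z
    refine ⟨x⁻¹, ?_⟩
    rw [← hce'', ← hce']
    have := cent_conj x⁻¹ e'
    simpa using this
  obtain ⟨y, hy, hyb⟩ := Cov
  obtain ⟨b, hbC, hbE, hbZ⟩ := H.exists_el_mem_of_index hqm (K := cent y) (Or.inl hy)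
  have hb := hyb b hbC hbE hbZ
  obtain ⟨x₁, hx₁⟩ := hclass b hbE hbZ
  have hcov : ∀ g : G, ∃ x : G, x * g * x⁻¹ ∈ cent y := by
    intro g
    by_cases hg : g ∈ center G
    · exact ⟨1, by simpa using center_le_cent y hg⟩
    obtain ⟨e, heC, heE, heZ⟩ := H.exists_el_mem_of_index hqm (K := cent g) (H.cs_noncentral hg)
    obtain ⟨x₂, hx₂⟩ := hclass e heE heZ
    have h1 : g ∈ cent e := mem_cent_comm.1 heC
    rw [hx₂] at h1
    have h2 : x₂⁻¹ * g * x₂ ∈ cent u := mem_conjS.1 h1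
    have h3 : x₁ * (x₂⁻¹ * g * x₂) * x₁⁻¹ ∈ cent b := by
      rw [hx₁]
      exact conj_mem_conjS h2
    refine ⟨x₁ * x₂⁻¹, ?_⟩
    have h4 : (x₁ * x₂⁻¹) * g * (x₁ * x₂⁻¹)⁻¹ = x₁ * (x₂⁻¹ * g * x₂) * x₁⁻¹ := by group
    rw [h4]
    exact hb h3
  have htop := Cfsg.Agent.Lib.Basic.JordanCover.eq_top_of_forall_conj_mem (cent y) hcov
  have h1 : cs y = 1 := by
    show (cent y).index = 1
    rw [htop]
    exact Subgroup.index_top
  exact H.not_center_of_m hy (index_cent_eq_one_iff.1 h1)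

/-- The hypothesis `HH` from commutativity of `Y`-centralizers. -/
theorem HH_of {p₁ p₂ : ℕ} (hp₁ : p₁.Prime) (hp₂ : p₂.Prime) (hne : p₁ ≠ p₂) (hp₁m : p₁ ∣ m) (hp₂m : p₂ ∣ m)
    (hY : ∀ s : ℕ, s.Prime → s ∣ m → ∀ e : G, El s e → cs e = m →
      ∀ a ∈ cent e, ∀ b ∈ cent e, a * b = b * a)
    (s : ℕ) (hs : s.Prime) (hsm : s ∣ m) (e : G) (heE : El s e) (heZ : e ∉ center G) :
    (∀ a ∈ cent e, ∀ b ∈ cent e, a * b = b * a) ∧
      ∀ s' : ℕ, s'.Prime → s' ∣ m → ∀ c ∈ cent e, El s' c → c ∉ center G → cent c = cent e := by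
  classical
  rcases H.cs_noncentral heZ with hcs | hcs
  · have hcomm := hY s hs hsm e heE hcs
    refine ⟨hcomm, fun s' _ _ c hc _ hcZ => ?_⟩
    have hle : cent e ≤ cent c := fun d hd => mem_cent_iff.2 (hcomm c hc d hd)
    exact (H.cent_eq_of_le hcs hcZ hle).symm
  · -- a second prime
    have hex : ∃ s'' : ℕ, s''.Prime ∧ s'' ∣ m ∧ s'' ≠ s := by
      by_cases h : p₁ = s
      · exact ⟨p₂, hp₂, hp₂m, fun h2 => hne (h.trans h2.symm)⟩
      · exact ⟨p₁, hp₁, hp₁m, h⟩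
    obtain ⟨s'', hs'', hs''m, hs''s⟩ := hex
    haveI : Fact s''.Prime := ⟨hs''⟩
    haveI : Fact s.Prime := ⟨hs⟩
    obtain ⟨e', he'C, he'E, he'Z⟩ := H.exists_el_mem_of_index hs''m (K := cent e) (Or.inr hcs)
    have hcee' : Nat.Coprime (orderOf e) (orderOf e') := heE.coprime hs hs'' (Ne.symm hs''s) he'E
    have hle : cent e ≤ cent e' := H.cent_le_of_mn hcs he'C hcee'
    have hcomm : ∀ a ∈ cent e, ∀ b ∈ cent e, a * b = b * a := by
      rcases H.cs_noncentral he'Z with hcs' | hcs'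
      · have h1 := hY s'' hs'' hs''m e' he'E hcs'
        exact fun a ha b hb => h1 a (hle ha) b (hle hb)
      · have hEq : cent e = cent e' := eq_of_le_of_index_eq hle (hcs.trans hcs'.symm)
        intro a ha b hb
        obtain ⟨a₁, a₂, ha12, ha₁, ha₂, ha₁E, ha₂c⟩ := exists_parts' a s
        have hzle : zpowers a ≤ cent e := zpowers_le.2 ha
        have h1 : cent e ≤ cent a₂ := H.cent_le_of_mn hcs (hzle ha₂) (by
          obtain ⟨k, hk⟩ := heE
          rw [hk]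
          exact Nat.Coprime.pow_left _ ha₂c.symm)
        have h2 : cent e ≤ cent a₁ := by
          rw [hEq]
          exact H.cent_le_of_mn hcs' (hEq ▸ hzle ha₁) (he'E.coprime hs'' hs hs''s ha₁E)
        have h3 : cent e ≤ cent a := by
          rw [ha12]
          exact le_trans (le_inf h2 h1) (inf_cent_le_cent_mul a₁ a₂)
        exact mem_cent_iff.1 (h3 hb)
    refine ⟨hcomm, fun s' hs' hs'm c hc hcE hcZ => ?_⟩
    have hle2 : cent e ≤ cent c := fun d hd => mem_cent_iff.2 (hcomm c hc d hd)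
    rcases H.cs_noncentral hcZ with hcs2 | hcs2
    · exfalso
      have h1 := hY s' hs' hs'm c hcE hcs2
      have hle3 : cent c ≤ cent e := fun d hd => mem_cent_iff.2 (h1 e (mem_cent_comm.1 hc) d hd)
      have h2 : cs e ∣ cs c := Subgroup.index_dvd_of_le hle3
      rw [hcs, hcs2] at h2
      have := Nat.le_of_dvd (by have := H.hm; omega) h2
      have := H.m_lt_mn
      omega
    · exact (eq_of_le_of_index_eq hle2 (hcs.trans hcs2.symm)).symm

/-- A centralizer of size `m` abelian: all of them are, conjugates. -/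
theorem cent_eq_conj_of_comm {y₀ : G} (hy₀ : cs y₀ = m)
    (hT : ∀ a ∈ cent y₀, ∀ b ∈ cent y₀, a * b = b * a) {y' : G} (hy' : cs y' = m) :
    ∃ g : G, cent y' = conjS g (cent y₀) := by
  classical
  have hn1 : n ≠ 1 := by have := H.hn; omega
  have hr : n.minFac.Prime := Nat.minFac_prime hn1
  have hrn : n.minFac ∣ n := Nat.minFac_dvd n
  set r := n.minFac
  haveI : Fact r.Prime := ⟨hr⟩
  obtain ⟨P, hP⟩ := exists_sylow_le_cent (H.not_dvd_cs_m hr hrn hy₀)
  obtain ⟨z, hzP, hzZ⟩ := H.noncentral_of_sylow hrn P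
  have hle : cent y₀ ≤ cent z := fun d hd => mem_cent_iff.2 (hT z (hP hzP) d hd)
  have hEq := H.cent_eq_of_le hy₀ hzZ hle
  obtain ⟨P', hP'⟩ := exists_sylow_le_cent (H.not_dvd_cs_m hr hrn hy')
  obtain ⟨g, hg⟩ := exists_conjS_eq P P'
  refine ⟨g, ?_⟩
  have h1 : g * z * g⁻¹ ∈ cent y' := hP' (hg ▸ conj_mem_conjS hzP)
  have h2 : cent (g * z * g⁻¹) = conjS g (cent y₀) := by rw [cent_conj, hEq]
  have hcT := comm_conjS hT g
  rw [← h2] at hcT
  have h3 : y' ∈ cent (g * z * g⁻¹) := mem_cent_comm.1 h1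
  have hle2 : cent (g * z * g⁻¹) ≤ cent y' := fun d hd => mem_cent_iff.2 (hcT y' h3 d hd)
  rw [← h2]
  refine (eq_of_le_of_index_eq hle2 ?_).symm
  have h4 : cs (g * z * g⁻¹) = cs z := cs_conj g z
  have h5 : cs z = m := H.cs_eq_m_of_le hy₀ hzZ hle
  show cs (g * z * g⁻¹) = cs y'
  rw [h4, h5, hy']

/-- `m` is a prime power. -/
theorem exists_prime_pow_m : ∃ q a : ℕ, q.Prime ∧ m = q ^ a := by
  classical
  have hm1 : m ≠ 1 := by have := H.hm; omega
  have hm0 : m ≠ 0 := by have := H.hm; omega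
  by_contra hno
  have hq : m.minFac.Prime := Nat.minFac_prime hm1
  have hqm : m.minFac ∣ m := Nat.minFac_dvd m
  set q := m.minFac with hqdef
  have hex : ∃ p : ℕ, p.Prime ∧ p ∣ m ∧ p ≠ q := by
    by_contra hno2
    push Not at hno2
    exact hno ⟨q, _, hq, Nat.eq_prime_pow_of_unique_prime_dvd hm0 (fun {d} hd hdm => hno2 d hd hdm)⟩
  obtain ⟨p, hp, hpm, hpq⟩ := hex
  have hqp : q < p := lt_of_le_of_ne (Nat.minFac_le_of_dvd hp.two_le hpm) (Ne.symm hpq)
  haveI : Fact p.Prime := ⟨hp⟩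
  haveI : Fact q.Prime := ⟨hq⟩
  rcases H.dichotomy with ⟨y₀, hy₀, hT⟩ | ⟨r, e, hr, hne, hS2⟩
  · have hY : ∀ s : ℕ, s.Prime → s ∣ m → ∀ e : G, El s e → cs e = m →
        ∀ a ∈ cent e, ∀ b ∈ cent e, a * b = b * a := by
      intro s _ _ e _ he
      obtain ⟨g, hg⟩ := H.cent_eq_conj_of_comm hy₀ hT he
      rw [hg]
      exact comm_conjS hT g
    refine H.false_of_two_primes (p := p) (q := q) hqp hpm hqm
      (H.HH_of hp hq hpq hpm hqm hY) ⟨y₀, hy₀, fun b hb _ hbZ => ?_⟩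
    have hle : cent y₀ ≤ cent b := fun d hd => mem_cent_iff.2 (hT b hb d hd)
    exact (H.cent_eq_of_le hy₀ hbZ hle).symm.le
  · have hrn : r ∣ n := by
      have he0 : e ≠ 0 := by
        rintro rfl
        have := H.hn
        simp at hne
        omega
      rw [hne]
      exact dvd_pow_self r he0
    have hnoY : ∀ s : ℕ, s.Prime → s ∣ m → ∀ e : G, El s e → cs e ≠ m := by
      intro s hs hsm e' he'E he'm
      have := hS2 e' s hs he'E he'm
      subst this
      exact H.not_dvd_n hs hsm hrn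
    have hY : ∀ s : ℕ, s.Prime → s ∣ m → ∀ e : G, El s e → cs e = m →
        ∀ a ∈ cent e, ∀ b ∈ cent e, a * b = b * a := by
      intro s hs hsm e' he'E he'm
      exact absurd he'm (hnoY s hs hsm e' he'E)
    obtain ⟨y, hy, s, hs, hyE⟩ := H.exists_primary_m
    have hsr : s = r := hS2 y s hs hyE hy
    subst hsr
    refine H.false_of_two_primes (p := p) (q := q) hqp hpm hqm
      (H.HH_of hp hq hpq hpm hqm hY) ⟨y, hy, fun b hb hbE hbZ => ?_⟩
    have hbmn : cs b = m * n := (H.cs_noncentral hbZ).resolve_left (hnoY q hq hqm b hbE)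
    have hqs : q ≠ s := fun h => H.not_dvd_n hq hqm (h ▸ hrn)
    exact H.cent_le_of_mn hbmn (mem_cent_comm.1 hb) (hbE.coprime hq hs hqs hyE)

end Hyp

end Cfsg.Agent.Lib.Nilpotent.OneMMN
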