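import Mathlib
import Cfsg.Agent.Lib.Nilpotent.OneMMN.PartB

/-!
# The special case: `m = q ^ a`, `n = r ^ e`, all elements of size `m` are `r`-elements: pairs
-/

set_option autoImplicit false

namespace Cfsg.Agent.Lib.Nilpotent.OneMMN

open Subgroup Cfsg.Agent.Lib.ClassSize.Basic Cfsg.Agent.Lib.ClassSize.Coprime
open scoped Pointwise

universe u v

section Generic2

variable {D : Type v} [Group D] [Finite D]

/-- A `q`-element twisting `u` by a central element, `u` of `r`-power class size, commutes with `u`. -/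
theorem central_twist_trivial {q r k : ℕ} (hq : q.Prime) (hr : r.Prime) (hqr : q ≠ r) {u c : D}
    (hu : cs u = r ^ k) (hc : El q c) (hz : c * u * c⁻¹ * u⁻¹ ∈ center D) : c * u = u * c := by
  set z := c * u * c⁻¹ * u⁻¹ with hzdef
  have h1 : c * u * c⁻¹ = z * u := by rw [hzdef]; group
  have hz1 : z ∈ leftStab (classOf u) := by
    rw [mem_leftStab]
    intro s hs
    obtain ⟨d, rfl⟩ := isConj_iff.1 hs
    refine isConj_iff.2 ⟨d * c, ?_⟩
    calc (d * c) * u * (d * c)⁻¹ = d * (c * u * c⁻¹) * d⁻¹ := by group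
      _ = d * (z * u) * d⁻¹ := by rw [h1]
      _ = z * (d * u * d⁻¹) := by
        rw [← mul_assoc d, Subgroup.mem_center_iff.1 hz d]
        group
  have h2 : orderOf z ∣ r ^ k := by
    rw [← hu, ← card_classOf]
    exact (Subgroup.orderOf_dvd_natCard _ hz1).trans (card_leftStab_dvd _)
  obtain ⟨a, ha⟩ := hc
  have h3 := conj_pow_eq hz h1 (q ^ a)
  rw [← ha, pow_orderOf_eq_one] at h3
  have h4 : z ^ orderOf c = 1 := by
    have h5 : u = z ^ orderOf c * u := by simpa using h3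
    exact mul_right_cancel (h5.symm.trans (one_mul u).symm)
  have h6 : orderOf z ∣ q ^ a := ha ▸ orderOf_dvd_of_pow_eq_one h4
  have h7 : orderOf z = 1 := Nat.eq_one_of_dvd_coprimes
    (Nat.Coprime.pow _ _ ((Nat.coprime_primes hq hr).2 hqr)) h6 h2
  have h8 : z = 1 := orderOf_eq_one_iff.1 h7
  rw [h8, one_mul] at h1
  calc c * u = (c * u * c⁻¹) * c := by group
    _ = u * c := by rw [h1]

/-- Strict comparison with the centre from an element in `K`. -/
theorem lt_ordProj_of_mem {t : ℕ} [Fact t.Prime] {v : D} (hv : El t v) (hvZ : v ∉ center D)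
    {K : Subgroup D} (hZK : center D ≤ K) (hvK : v ∈ K) :
    ordProj[t] (Nat.card (center D)) < ordProj[t] (Nat.card K) := by
  obtain ⟨W, -, hWZ, hWp, hWc⟩ := exists_sylIn (p := t) (center D) ⊥ bot_le IsPGroup.of_bot
  haveI : W.Normal := by
    refine ⟨fun a ha g => ?_⟩
    have := Subgroup.mem_center_iff.1 (hWZ ha) g
    rwa [this, mul_inv_cancel_right]
  have hT : IsPGroup t (W ⊔ zpowers v : Subgroup D) := IsPGroup.to_sup_of_normal_left hWp hv.isPGroup
  have hTle : (W ⊔ zpowers v : Subgroup D) ≤ K :=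
    sup_le (le_trans hWZ hZK) (zpowers_le.2 hvK)
  have h2 := Nat.le_of_dvd (Nat.ordProj_pos _ _) (card_dvd_ordProj hTle hT)
  have h3 : Nat.card W < Nat.card (W ⊔ zpowers v : Subgroup D) := by
    have hle : W ≤ (W ⊔ zpowers v : Subgroup D) := le_sup_left
    by_contra hge
    have heq := Subgroup.eq_of_le_of_card_ge hle (by omega)
    have : v ∈ W := by
      rw [heq]
      exact (le_sup_right : zpowers v ≤ _) (mem_zpowers v)
    exact hvZ (hWZ this)
  rw [← hWc]
  omega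

/-- Conjugates under products. -/
theorem conjS_mul (x y : D) (S : Subgroup D) : conjS (x * y) S = conjS x (conjS y S) := by
  ext a
  rw [mem_conjS, mem_conjS, mem_conjS]
  simp [mul_assoc]

theorem conjS_eq_of_mem {x : D} {S : Subgroup D} (hx : x ∈ S) : conjS x S = S := by
  ext a
  rw [mem_conjS]
  constructor
  · intro h
    have h1 := S.mul_mem (S.mul_mem hx h) (S.inv_mem hx)
    have h2 : x * (x⁻¹ * a * x) * x⁻¹ = a := by group
    rwa [h2] at h1
  · intro h
    exact S.mul_mem (S.mul_mem (S.inv_mem hx) h) hx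

/-- Two subgroups of `T` of the full `q`-part are conjugate in `T`. -/
theorem exists_conj_of_sylIn {q : ℕ} [Fact q.Prime] {T A₁ A₂ : Subgroup D} (h1 : A₁ ≤ T) (h2 : A₂ ≤ T)
    (c1 : Nat.card A₁ = ordProj[q] (Nat.card T)) (c2 : Nat.card A₂ = ordProj[q] (Nat.card T)) :
    ∃ t ∈ T, conjS t A₁ = A₂ := by
  have e1 : Nat.card (A₁.subgroupOf T) = q ^ (Nat.card T).factorization q := by
    rw [Nat.card_congr (Subgroup.subgroupOfEquivOfLe h1).toEquiv, c1]
  have e2 : Nat.card (A₂.subgroupOf T) = q ^ (Nat.card T).factorization q := by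
    rw [Nat.card_congr (Subgroup.subgroupOfEquivOfLe h2).toEquiv, c2]
  let P₁ : Sylow q T := Sylow.ofCard _ e1
  let P₂ : Sylow q T := Sylow.ofCard _ e2
  obtain ⟨t, ht⟩ := exists_conjS_eq P₁ P₂
  refine ⟨t, t.2, ?_⟩
  have hP₁ : (P₁ : Subgroup T) = A₁.subgroupOf T := Sylow.coe_ofCard _ _
  have hP₂ : (P₂ : Subgroup T) = A₂.subgroupOf T := Sylow.coe_ofCard _ _
  rw [hP₁, hP₂] at ht
  ext a
  rw [mem_conjS]
  constructor
  · intro h
    have h3 : (t : D) ∈ T := t.2
    have h4 : a ∈ T := by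
      have h5 := T.mul_mem (T.mul_mem h3 (h1 h)) (T.inv_mem h3)
      have h6 : (t : D) * ((t : D)⁻¹ * a * t) * (t : D)⁻¹ = a := by group
      rwa [h6] at h5
    have h7 : (⟨a, h4⟩ : T) ∈ conjS t (A₁.subgroupOf T) := by
      rw [mem_conjS, Subgroup.mem_subgroupOf]
      exact h
    rw [ht, Subgroup.mem_subgroupOf] at h7
    exact h7
  · intro h
    have h4 : a ∈ T := h2 h
    have h7 : (⟨a, h4⟩ : T) ∈ A₂.subgroupOf T := by
      rw [Subgroup.mem_subgroupOf]
      exact h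
    rw [← ht, mem_conjS, Subgroup.mem_subgroupOf] at h7
    exact h7

end Generic2

variable {G : Type u} [Group G] [Finite G]

/-- The special case. -/
structure S2Ctx {m n : ℕ} (H : Hyp G m n) (q r a e : ℕ) : Prop where
  hq : q.Prime
  hr : r.Prime
  hqr : q ≠ r
  hma : m = q ^ a
  hne : n = r ^ e
  hS2 : ∀ (x : G) (s : ℕ), s.Prime → El s x → cs x = m → s = r

namespace S2Ctx

variable {m n q r a e : ℕ} {H : Hyp G m n} (C : S2Ctx H q r a e)
include C

theorem ha0 : a ≠ 0 := by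
  rintro rfl
  have := H.hm
  rw [C.hma] at this
  simp at this

theorem he0 : e ≠ 0 := by
  rintro rfl
  have := H.hn
  rw [C.hne] at this
  simp at this

theorem hqm : q ∣ m := C.hma ▸ dvd_pow_self q C.ha0

theorem hrn : r ∣ n := C.hne ▸ dvd_pow_self r C.he0

theorem cs_q {b : G} (hb : El q b) (hbZ : b ∉ center G) : cs b = m * n :=
  (H.cs_noncentral hbZ).resolve_left (fun h => C.hqr (C.hS2 b q C.hq hb h))

theorem coprime_el {x y : G} (hx : El q x) (hy : El r y) : Nat.Coprime (orderOf x) (orderOf y) :=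
  hx.coprime C.hq C.hr C.hqr hy

theorem ordProj_m : ordProj[q] m = m := by
  rw [C.hma, Nat.factorization_pow, Nat.Prime.factorization C.hq]
  simp

theorem q_le_m : q ≤ m := by
  rw [C.hma]
  exact Nat.le_self_pow C.ha0 q

/-- Index computations: `m` is a `q`-power. -/
theorem coprime_sylow_m [Fact q.Prime] (Q : Sylow q G) : Nat.Coprime (Q : Subgroup G).index m := by
  rw [C.hma]
  exact Nat.Coprime.pow_right _ ((Nat.Prime.coprime_iff_not_dvd C.hq).2 Q.not_dvd_index).symm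

theorem card_inf_of_m [Fact q.Prime] (Q : Sylow q G) {y : G} (hy : cs y = m) :
    Nat.card ((Q : Subgroup G) ⊓ cent y : Subgroup G) * m = Nat.card Q := by
  have hc : Nat.Coprime (Q : Subgroup G).index (cent y).index := by
    show Nat.Coprime _ (cs y)
    rw [hy]
    exact C.coprime_sylow_m Q
  have h1 := index_inf_of_coprime hc
  have h2 := ((Q : Subgroup G) ⊓ cent y).card_mul_index
  have h3 := (Q : Subgroup G).card_mul_index
  rw [h1] at h2
  have h4 : (cent y).index = m := hy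
  rw [h4] at h2
  have hpos : 0 < (Q : Subgroup G).index := Nat.pos_of_ne_zero Subgroup.index_ne_zero_of_finite
  have h5 : (Nat.card ((Q : Subgroup G) ⊓ cent y : Subgroup G) * m) * (Q : Subgroup G).index =
      Nat.card Q * (Q : Subgroup G).index := by
    rw [h3, ← h2]
    ring
  exact Nat.eq_of_mul_eq_mul_right hpos h5

/-- Conjugates of an element of size `m` are conjugates under `Q`. -/
theorem exists_conj_sylow [Fact q.Prime] (Q : Sylow q G) {y : G} (hy : cs y = m) (g : G) :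
    ∃ c ∈ (Q : Subgroup G), g * y * g⁻¹ = c * y * c⁻¹ := by
  have hc : Nat.Coprime (Q : Subgroup G).index (cent y).index := by
    show Nat.Coprime _ (cs y)
    rw [hy]
    exact C.coprime_sylow_m Q
  obtain ⟨c, hc1, d, hd, rfl⟩ := exists_mul_of_coprime hc g
  refine ⟨c, hc1, ?_⟩
  have h : d * y = y * d := (mem_cent_iff.1 hd).symm
  calc c * d * y * (c * d)⁻¹ = c * (d * y) * d⁻¹ * c⁻¹ := by group
    _ = c * (y * d) * d⁻¹ * c⁻¹ := by rw [h]
    _ = c * y * c⁻¹ := by group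

end S2Ctx

/-- The normal closure of an element. -/
abbrev Fo (y : G) : Subgroup G := normalClosure ({y} : Set G)

omit [Finite G] in
theorem conj_mem_Fo (y g : G) : g * y * g⁻¹ ∈ Fo y :=
  (Subgroup.normalClosure_normal (s := ({y} : Set G))).conj_mem y
    (Subgroup.subset_normalClosure (Set.mem_singleton y)) g

omit [Finite G] in
theorem Fo_le_of_forall {y : G} {K : Subgroup G} (h : ∀ g : G, g * y * g⁻¹ ∈ K) : Fo y ≤ K := by
  rw [Fo, Subgroup.normalClosure]
  rw [Subgroup.closure_le]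
  intro x hx
  obtain ⟨w, hw, hwx⟩ := Group.mem_conjugatesOfSet_iff.mp hx
  rw [Set.mem_singleton_iff.mp hw] at hwx
  obtain ⟨g, rfl⟩ := isConj_iff.mp hwx
  exact h g

/-- A pair. -/
structure Pair (Q : Subgroup G) (u y : G) (q r m : ℕ) : Prop where
  huQ : u ∈ Q
  huZ : u ∉ center G
  hucen : ∀ c ∈ Q, c * u * c⁻¹ * u⁻¹ ∈ center G
  hyE : El r y
  hym : cs y = m
  hyu : y ∈ cent u

namespace S2Ctx

variable {m n q r a e : ℕ} {H : Hyp G m n} (C : S2Ctx H q r a e)
include C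

variable [hqF : Fact q.Prime] [hrF : Fact r.Prime] {Q : Sylow q G} {u y : G}

/-- `cent u ≤ cent (g y g⁻¹)`. -/
theorem cent_le_conj (P : Pair (Q : Subgroup G) u y q r m) (g : G) : cent u ≤ cent (g * y * g⁻¹) := by
  obtain ⟨c, hc, hg⟩ := C.exists_conj_sylow Q P.hym g
  rw [hg]
  have h1 : c * y * c⁻¹ ∈ cent u := conj_mem_cent_of_central (P.hucen c hc) P.hyu
  have huE : El q u := El.of_mem Q.2 P.huQ
  exact H.cent_le_of_mn (C.cs_q huE P.huZ) h1 (C.coprime_el huE (P.hyE.conj c))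

theorem cent_le_cent_Fo (P : Pair (Q : Subgroup G) u y q r m) {w : G} (hw : w ∈ cent u) {f : G}
    (hf : f ∈ Fo y) : w * f = f * w := by
  have h1 : Fo y ≤ cent w := Fo_le_of_forall (fun g =>
    mem_cent_comm.1 (C.cent_le_conj P g hw))
  exact mem_cent_iff.1 (h1 hf)

theorem Fo_le_cent (P : Pair (Q : Subgroup G) u y q r m) : Fo y ≤ cent u := fun _ hf =>
  mem_cent_iff.2 (C.cent_le_cent_Fo P (mem_cent_self u) hf)

theorem Fo_comm (P : Pair (Q : Subgroup G) u y q r m) : ∀ a ∈ Fo y, ∀ b ∈ Fo y, a * b = b * a :=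
  fun _ ha _ hb => C.cent_le_cent_Fo P (C.Fo_le_cent P ha) hb

theorem Fo_el (P : Pair (Q : Subgroup G) u y q r m) {f : G} (hf : f ∈ Fo y) : El r f := by
  have h1 : Fo y ≤ tors (Fo y) (C.Fo_comm P) (ordProj[r] (Nat.card G)) := Fo_le_of_forall (fun g =>
    ⟨conj_mem_Fo y g, (pow_ordProj_eq_one_iff C.hr).2 (P.hyE.conj g)⟩)
  exact (pow_ordProj_eq_one_iff C.hr).1 (h1 hf).2

theorem Fo_isPGroup (P : Pair (Q : Subgroup G) u y q r m) : IsPGroup r (Fo y) := by
  rw [IsPGroup.iff_orderOf]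
  rintro ⟨f, hf⟩
  obtain ⟨k, hk⟩ := C.Fo_el P hf
  exact ⟨k, by rw [← hk]; exact Subgroup.orderOf_mk f hf⟩

/-- `C_Q(y) = C_Q(u)`. -/
theorem inf_eq (P : Pair (Q : Subgroup G) u y q r m) :
    (Q : Subgroup G) ⊓ cent y = (Q : Subgroup G) ⊓ cent u := by
  have huE : El q u := El.of_mem Q.2 P.huQ
  have hcsu := C.cs_q huE P.huZ
  have hle : cent u ≤ cent y := H.cent_le_of_mn hcsu P.hyu (C.coprime_el huE P.hyE)
  apply le_antisymm
  · rintro c ⟨hcQ, hcy⟩
    refine ⟨hcQ, ?_⟩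
    have huy : u ∈ cent y := mem_cent_comm.1 P.hyu
    let u' : cent y := ⟨u, huy⟩
    let c' : cent y := ⟨c, hcy⟩
    have hcs : ∃ k, cs u' = r ^ k := by
      rw [cs_subtype]
      rcases H.relIndex_cases P.hym huy (P.hyE.coprime C.hr C.hq C.hqr.symm huE) with h | h
      · exact ⟨0, by rw [h, pow_zero]⟩
      · exact ⟨e, by rw [h, C.hne]⟩
    obtain ⟨k, hk⟩ := hcs
    have hz : c' * u' * c'⁻¹ * u'⁻¹ ∈ center (cent y) := by
      rw [Subgroup.mem_center_iff]
      intro g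
      apply Subtype.ext
      exact Subgroup.mem_center_iff.1 (P.hucen c hcQ) g
    have h1 := central_twist_trivial C.hq C.hr C.hqr hk (El.subtype.2 (El.of_mem Q.2 hcQ)) hz
    have h2 : c * u = u * c := congrArg Subtype.val h1
    exact mem_cent_iff.2 h2.symm
  · exact inf_le_inf_left _ hle

theorem inf_eq_of_mem (P : Pair (Q : Subgroup G) u y q r m) {f : G} (hf : f ∈ Fo y)
    (hfZ : f ∉ center G) : (Q : Subgroup G) ⊓ cent f = (Q : Subgroup G) ⊓ cent y := by
  have h1 : (Q : Subgroup G) ⊓ cent y ≤ (Q : Subgroup G) ⊓ cent f := by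
    rw [C.inf_eq P]
    rintro c ⟨hcQ, hcu⟩
    exact ⟨hcQ, mem_cent_comm.1 (mem_cent_iff.2 (C.cent_le_cent_Fo P hcu hf))⟩
  symm
  apply Subgroup.eq_of_le_of_card_ge h1
  have h2 : IsPGroup q ((Q : Subgroup G) ⊓ cent f : Subgroup G) := Q.2.to_le inf_le_left
  have h3 := card_dvd_ordProj (inf_le_right : (Q : Subgroup G) ⊓ cent f ≤ cent f) h2
  have h4 := ordProj_card_mul_index (p := q) (cent f)
  rw [H.ordProj_index_of_m C.hq C.hqm (K := cent f) (H.cs_noncentral hfZ), C.ordProj_m] at h4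
  have h5 := C.card_inf_of_m Q P.hym
  rw [card_sylow, ← h4] at h5
  have hm0 : 0 < m := by have := H.hm; omega
  have h6 := Nat.eq_of_mul_eq_mul_right hm0 h5
  rw [h6]
  exact Nat.le_of_dvd (Nat.ordProj_pos _ _) h3

theorem not_le_center (P : Pair (Q : Subgroup G) u y q r m) : ¬ Fo y ≤ center G := fun h =>
  H.not_center_of_m P.hym (h (Subgroup.subset_normalClosure rfl))

/-- `m = q`. -/
theorem m_eq_q (P : Pair (Q : Subgroup G) u y q r m) (hup : u ^ q ∈ center G) : m = q := by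
  set A : Subgroup G := (Q : Subgroup G) ⊓ cent y with hA
  have hcoprime : Nat.Coprime (Nat.card (Fo y)) q := by
    obtain ⟨k, hk⟩ := IsPGroup.iff_card.1 (C.Fo_isPGroup P)
    rw [hk]
    exact Nat.Coprime.pow_left _ ((Nat.coprime_primes C.hr C.hq).2 C.hqr.symm)
  have hfa : ∀ c ∈ A, ∀ w ∈ Fo y, c * w * c⁻¹ = w := by
    intro c hc w hw
    rw [hA, C.inf_eq P] at hc
    rw [C.cent_le_cent_Fo P hc.2 hw]
    group
  have hWn : ∀ c ∈ (Q : Subgroup G), ∀ w ∈ Fo y, c * w * c⁻¹ ∈ Fo y := fun c _ w hw =>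
    Subgroup.normalClosure_normal.conj_mem w hw c
  have hb : ∀ c ∈ (Q : Subgroup G), ∀ w ∈ Fo y, w ∉ center G → c * w * c⁻¹ = w → c ∈ A := by
    intro c hc w hw hwZ hfix
    rw [hA, ← C.inf_eq_of_mem P hw hwZ]
    refine ⟨hc, mem_cent_iff.2 ?_⟩
    calc w * c = (c * w * c⁻¹) * c := by rw [hfix]
      _ = c * w := by group
  have hfc : ∀ c ∈ (Q : Subgroup G), c ^ q ∈ A := by
    intro c hc
    rw [hA, C.inf_eq P]
    exact ⟨(Q : Subgroup G).pow_mem hc _, pow_mem_of_central (P.hucen c hc) hup⟩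
  have hfd : ∀ c ∈ (Q : Subgroup G), ∀ d ∈ (Q : Subgroup G), (d * c)⁻¹ * (c * d) ∈ A := by
    intro c hc d hd
    rw [hA, C.inf_eq P]
    exact ⟨(Q : Subgroup G).mul_mem ((Q : Subgroup G).inv_mem ((Q : Subgroup G).mul_mem hd hc))
      ((Q : Subgroup G).mul_mem hc hd), comm_mem_of_central (P.hucen c hc) (P.hucen d hd)⟩
  have hle : A.relIndex (Q : Subgroup G) ≤ q :=
    relIndex_le_of_fpf (q := q) (Q := (Q : Subgroup G)) (Q₁ := A) (W := Fo y) inf_le_left
      (C.Fo_comm P) hWn (C.not_le_center P) hcoprime hfa hb hfc hfd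
  have h1 := card_mul_relIndex (inf_le_left : A ≤ (Q : Subgroup G))
  have h2 := C.card_inf_of_m Q P.hym
  have hpos : 0 < Nat.card A := Nat.card_pos
  have h3 : A.relIndex (Q : Subgroup G) = m := Nat.eq_of_mul_eq_mul_left hpos (h1.trans h2.symm)
  have := C.q_le_m
  omega

/-- Existence of a pair with `u ^ q` central. -/
theorem exists_pair (Q : Sylow q G) :
    ∃ u y : G, Pair (Q : Subgroup G) u y q r m ∧ u ^ q ∈ center G := by
  classical
  obtain ⟨x₀, hx₀⟩ := H.exm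
  have hQZ : ¬ (Q : Subgroup G) ≤ center G := fun h =>
    not_dvd_cs_of_sylow_le Q (le_trans h (center_le_cent x₀)) (by rw [hx₀]; exact C.hqm)
  obtain ⟨u₀, hu₀Q, hu₀Z, hu₀cen, hu₀p⟩ := exists_central_elt Q.2 le_rfl
    (fun c hc x hx => (Q : Subgroup G).mul_mem ((Q : Subgroup G).mul_mem hc hx) ((Q : Subgroup G).inv_mem hc))
    hQZ
  by_cases hex : ∃ y ∈ cent u₀, El r y ∧ cs y = m
  · obtain ⟨y, hy, hyE, hym⟩ := hex
    exact ⟨u₀, y, ⟨hu₀Q, hu₀Z, hu₀cen, hyE, hym, hy⟩, hu₀p⟩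
  push Not at hex
  -- a primary element of size `m`
  obtain ⟨y₀, hy₀, s, hs, hy₀E⟩ := H.exists_primary_m
  have hsr : s = r := C.hS2 y₀ s hs hy₀E hy₀
  subst hsr
  have hu₀E : El q u₀ := El.of_mem Q.2 hu₀Q
  have hcsu₀ := C.cs_q hu₀E hu₀Z
  set V := cent u₀ with hV
  -- `r`-elements of `V` are central in `V`
  have hrV : ∀ w ∈ V, El s w → V ≤ cent w := fun w hw hwE =>
    H.cent_le_of_mn hcsu₀ hw (C.coprime_el hu₀E hwE)
  set B : Subgroup G := V ⊓ centralizer (V : Set G) with hB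
  have hBab : ∀ a ∈ B, ∀ b ∈ B, a * b = b * a := fun a ha b hb =>
    (Subgroup.mem_centralizer_iff.1 hb.2 a ha.1)
  set W := tors B hBab (ordProj[s] (Nat.card G)) with hW
  have hWp : IsPGroup s W := isPGroup_tors C.hr
  have hmemW : ∀ {w : G}, w ∈ V → El s w → w ∈ W := by
    intro w hw hwE
    refine ⟨⟨hw, Subgroup.mem_centralizer_iff.2 fun v hv => ?_⟩, (pow_ordProj_eq_one_iff C.hr).2 hwE⟩
    exact (mem_cent_iff.1 (hrV w hw hwE hv)).symm
  have hnormV : ∀ c ∈ (Q : Subgroup G), ∀ v ∈ V, c * v * c⁻¹ ∈ V := fun c hc v hv =>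
    conj_mem_cent_of_central (hu₀cen c hc) hv
  have hnormB : ∀ c ∈ (Q : Subgroup G), ∀ b ∈ B, c * b * c⁻¹ ∈ B := by
    intro c hc b hb
    refine ⟨hnormV c hc b hb.1, Subgroup.mem_centralizer_iff.2 fun v hv => ?_⟩
    have h1 := hnormV c⁻¹ ((Q : Subgroup G).inv_mem hc) v hv
    have h2 := Subgroup.mem_centralizer_iff.1 hb.2 _ h1
    have h3 : c * (c⁻¹ * v * c⁻¹⁻¹ * b) * c⁻¹ = v * (c * b * c⁻¹) := by group
    have h4 : c * (b * (c⁻¹ * v * c⁻¹⁻¹)) * c⁻¹ = (c * b * c⁻¹) * v := by group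
    rw [← h3, ← h4, h2]
  have hWn : ∀ c ∈ (Q : Subgroup G), ∀ w ∈ W, c * w * c⁻¹ ∈ W := fun c hc w hw =>
    conj_mem_tors (hnormB c hc) hw
  -- `W` is not central
  have hWZ : ¬ W ≤ center G := by
    obtain ⟨b, hbC, hbE, hbZ⟩ := H.exists_el_mem_of_index C.hqm (K := cent y₀) (Or.inl hy₀)
    have hcsb := C.cs_q hbE hbZ
    have hlt := lt_ordProj_of_mem hy₀E (H.not_center_of_m hy₀) (center_le_cent b)
      (mem_cent_comm.1 hbC)
    have heq : ordProj[s] (Nat.card (cent b)) = ordProj[s] (Nat.card V) := by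
      have h1 := ordProj_card_mul_index (p := s) (cent b)
      have h2 := ordProj_card_mul_index (p := s) V
      have h3 : (cent b).index = V.index := hcsb.trans hcsu₀.symm
      rw [h3] at h1
      exact Nat.eq_of_mul_eq_mul_right (Nat.ordProj_pos _ _) (h1.trans h2.symm)
    rw [heq] at hlt
    obtain ⟨S, -, hSV, hSp, hSc⟩ := exists_sylIn (p := s) V ⊥ bot_le IsPGroup.of_bot
    obtain ⟨c, hc, hcZ⟩ := exists_notMem_of_card_gt (Z₀ := center G) hSp (by rw [hSc]; exact hlt)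
    intro h
    exact hcZ (h (hmemW (hSV hc) (El.of_mem hSp hc)))
  have hWq : Nat.Coprime (Nat.card W) q := by
    obtain ⟨k, hk⟩ := IsPGroup.iff_card.1 hWp
    rw [hk]
    exact Nat.Coprime.pow_left _ ((Nat.coprime_primes C.hr C.hq).2 C.hqr.symm)
  set Q₁ : Subgroup G := (Q : Subgroup G) ⊓ V with hQ₁
  have hWab : ∀ a ∈ W, ∀ b ∈ W, a * b = b * a := fun a ha b hb => hBab a ha.1 b hb.1
  have hfa : ∀ c ∈ Q₁, ∀ w ∈ W, c * w * c⁻¹ = w := by
    intro c hc w hw
    have h1 := Subgroup.mem_centralizer_iff.1 hw.1.2 c hc.2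
    rw [h1]
    group
  have hb : ∀ c ∈ (Q : Subgroup G), ∀ w ∈ W, w ∉ center G → c * w * c⁻¹ = w → c ∈ Q₁ := by
    intro c hc w hw hwZ hfix
    have hwE : El s w := (pow_ordProj_eq_one_iff C.hr).1 hw.2
    have hcsw : cs w = m * n := (H.cs_noncentral hwZ).resolve_left (hex w hw.1.1 hwE)
    have hEq : cent w = V := by
      refine (eq_of_le_of_index_eq (hrV w hw.1.1 hwE) (hcsu₀.trans hcsw.symm)).symm
    refine ⟨hc, ?_⟩
    show c ∈ V
    rw [← hEq, mem_cent_iff]
    calc w * c = (c * w * c⁻¹) * c := by rw [hfix]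
      _ = c * w := by group
  have hfc : ∀ c ∈ (Q : Subgroup G), c ^ q ∈ Q₁ := fun c hc =>
    ⟨(Q : Subgroup G).pow_mem hc _, pow_mem_of_central (hu₀cen c hc) hu₀p⟩
  have hfd : ∀ c ∈ (Q : Subgroup G), ∀ d ∈ (Q : Subgroup G), (d * c)⁻¹ * (c * d) ∈ Q₁ := fun c hc d hd =>
    ⟨(Q : Subgroup G).mul_mem ((Q : Subgroup G).inv_mem ((Q : Subgroup G).mul_mem hd hc))
      ((Q : Subgroup G).mul_mem hc hd), comm_mem_of_central (hu₀cen c hc) (hu₀cen d hd)⟩
  have hle : Q₁.relIndex (Q : Subgroup G) ≤ q :=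
    relIndex_le_of_fpf (q := q) (Q := (Q : Subgroup G)) (Q₁ := Q₁) (W := W) inf_le_left
      hWab hWn hWZ hWq hfa hb hfc hfd
  -- `m = q`
  have hmq : m = q := by
    have h1 := card_mul_relIndex (inf_le_left : Q₁ ≤ (Q : Subgroup G))
    have h2 := card_dvd_ordProj (inf_le_right : Q₁ ≤ V) (Q.2.to_le inf_le_left)
    have h3 := ordProj_card_mul_index (p := q) V
    rw [H.ordProj_index_of_m C.hq C.hqm (K := V) (Or.inr hcsu₀), C.ordProj_m] at h3
    have h4 : Nat.card Q₁ * m ∣ Nat.card Q := by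
      rw [card_sylow, ← h3]
      exact Nat.mul_dvd_mul_right h2 m
    rw [← h1] at h4
    have h5 : m ∣ Q₁.relIndex (Q : Subgroup G) := Nat.dvd_of_mul_dvd_mul_left Nat.card_pos h4
    have hrel0 : 0 < Q₁.relIndex (Q : Subgroup G) := by
      rcases Nat.eq_zero_or_pos (Q₁.relIndex (Q : Subgroup G)) with h | h
      · rw [h] at h1
        have : 0 < Nat.card Q := Nat.card_pos
        simp only [mul_zero] at h1
        omega
      · exact h
    have h6 := Nat.le_of_dvd hrel0 h5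
    have := C.q_le_m
    omega
  -- the new central element
  set A : Subgroup G := (Q : Subgroup G) ⊓ cent y₀ with hA
  have hAcard : Nat.card A * q = Nat.card Q := by
    have := C.card_inf_of_m Q hy₀
    rwa [hmq] at this
  have hAind : (A.subgroupOf (Q : Subgroup G)).index = (Nat.card Q).minFac := by
    have h1 := card_mul_relIndex (inf_le_left : A ≤ (Q : Subgroup G))
    have h2 : A.relIndex (Q : Subgroup G) = q :=
      Nat.eq_of_mul_eq_mul_left Nat.card_pos (h1.trans hAcard.symm)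
    obtain ⟨k, hk⟩ := IsPGroup.iff_card.1 Q.2
    have hk0 : k ≠ 0 := by
      rintro rfl
      rw [pow_zero] at hk
      have : 0 < Nat.card A := Nat.card_pos
      have h3 := C.hq.one_lt
      rw [hk] at hAcard
      nlinarith
    show A.relIndex (Q : Subgroup G) = _
    rw [h2]
    have h5 : Nat.card (Q : Subgroup G) = q ^ k := hk
    rw [show Nat.card Q = Nat.card (Q : Subgroup G) from rfl, h5, Nat.Prime.pow_minFac C.hq hk0]
  have hAn : (A.subgroupOf (Q : Subgroup G)).Normal := Subgroup.normal_of_index_eq_minFac_card hAind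
  have hAnorm : ∀ c ∈ (Q : Subgroup G), ∀ x ∈ A, c * x * c⁻¹ ∈ A := by
    intro c hc x hx
    have h1 : (⟨x, hx.1⟩ : (Q : Subgroup G)) ∈ A.subgroupOf (Q : Subgroup G) := by
      rw [Subgroup.mem_subgroupOf]
      exact hx
    have h2 := hAn.conj_mem _ h1 ⟨c, hc⟩
    rwa [Subgroup.mem_subgroupOf] at h2
  have hAZ : ¬ A ≤ center G := by
    have hlt := H.lt_ordProj_of_index C.hqm (K := cent y₀) (p := q) (Or.inl hy₀)
    have h1 := ordProj_card_mul_index (p := q) (cent y₀)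
    have h2 : ordProj[q] (cent y₀).index = m := by
      show ordProj[q] (cs y₀) = m
      rw [hy₀, C.ordProj_m]
    rw [h2, hmq] at h1
    rw [← card_sylow Q, ← hAcard] at h1
    have h3 := Nat.eq_of_mul_eq_mul_right C.hq.pos h1
    rw [h3] at hlt
    obtain ⟨c, hc, hcZ⟩ := exists_notMem_of_card_gt (Z₀ := center G) (Q.2.to_le inf_le_left : IsPGroup q A) hlt
    exact fun h => hcZ (h hc)
  obtain ⟨u₁, hu₁A, hu₁Z, hu₁cen, hu₁p⟩ := exists_central_elt Q.2 (inf_le_left : A ≤ (Q : Subgroup G)) hAnorm hAZ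
  exact ⟨u₁, y₀, ⟨hu₁A.1, hu₁Z, hu₁cen, hy₀E, hy₀, mem_cent_comm.1 hu₁A.2⟩, hu₁p⟩

end S2Ctx

end Cfsg.Agent.Lib.Nilpotent.OneMMN
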