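import Mathlib
import Cfsg.Agent.Lib.Nilpotent.OneMMN.PartC1
import Cfsg.Agent.Lib.Char.Kazarin
import Cfsg.Agent.Lib.Basic.PCore

/-!
# The special case continued: the structure of the Sylow `q`-subgroup and Kazarin's theorem
-/

set_option autoImplicit false

namespace Cfsg.Agent.Lib.Nilpotent.OneMMN

open Subgroup Cfsg.Agent.Lib.ClassSize.Basic Cfsg.Agent.Lib.ClassSize.Coprime
open scoped Pointwise

universe u v

section Generic3

variable {D : Type v} [Group D] [Finite D]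

/-- Kazarin: a conjugate of `x` lies in the product of a Sylow subgroup and the `r`-core. -/
theorem conj_mem_sup_pCore {q r : ℕ} [hqF : Fact q.Prime] [hrF : Fact r.Prime] (S : Sylow q D)
    {x : D} (hxS : x ∈ (S : Subgroup D)) {j : ℕ} (hx : cs x = r ^ j)
    (hgen : ∀ c ∈ (S : Subgroup D), ∀ T : Subgroup D, x ∈ T → (S : Subgroup D) ⊓ center D ≤ T → c ∈ T)
    (k : D) : k * x * k⁻¹ ∈ (S : Subgroup D) ⊔ Cfsg.pCore r D := by
  haveI : (Cfsg.pCore r D).Normal := Cfsg.Agent.Lib.Basic.PCore.pCore_normal r D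
  let π : D →* D ⧸ Cfsg.pCore r D := QuotientGroup.mk' (Cfsg.pCore r D)
  have hπ : Function.Surjective π := QuotientGroup.mk'_surjective _
  let S' : Sylow q (D ⧸ Cfsg.pCore r D) := S.mapSurjective hπ
  have hS' : (S' : Subgroup (D ⧸ Cfsg.pCore r D)) = (S : Subgroup D).map π := Sylow.coe_mapSurjective _ _
  set w := k * x * k⁻¹ with hw
  have hker : ∀ t : D, t ∈ Cfsg.pCore r D → π t = 1 := fun t ht => (QuotientGroup.eq_one_iff t).2 ht
  have hwx : π w * π x = π x * π w := by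
    have h1 := Cfsg.Agent.Lib.Char.Kazarin.commutator_conj_mem_pCore r x ⟨j, hx⟩ k 1
    simp only [one_mul, inv_one, mul_one] at h1
    have h2 := hker _ h1
    rw [map_mul, map_mul, map_mul, map_inv, map_inv] at h2
    have h3 := mul_inv_eq_one.1 h2
    exact mul_inv_eq_iff_eq_mul.1 h3
  have hcc : ∀ c ∈ (S : Subgroup D), π w * π c = π c * π w := by
    intro c hc
    let T : Subgroup D := (centralizer ({π w} : Set (D ⧸ Cfsg.pCore r D))).comap π
    have hxT : x ∈ T := by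
      rw [mem_comap, mem_centralizer_iff]
      intro h hh
      rw [Set.mem_singleton_iff.1 hh]
      exact hwx
    have hZT : (S : Subgroup D) ⊓ center D ≤ T := by
      rintro z ⟨-, hz⟩
      rw [mem_comap, mem_centralizer_iff]
      intro h hh
      rw [Set.mem_singleton_iff.1 hh, ← map_mul, ← map_mul]
      exact congrArg π (Subgroup.mem_center_iff.1 hz w)
    have h1 := hgen c hc T hxT hZT
    rw [mem_comap, mem_centralizer_iff] at h1
    exact h1 _ (Set.mem_singleton _)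
  have hwE : El q (π w) := by
    obtain ⟨e, he⟩ := El.of_mem S.2 hxS
    have h1 : orderOf w = q ^ e := by
      rw [← he, hw]
      exact (MulAut.conj k).orderOf_eq x
    have h2 : orderOf (π w) ∣ q ^ e := h1 ▸ orderOf_map_dvd π w
    obtain ⟨i, -, hi⟩ := (Nat.dvd_prime_pow hqF.out).1 h2
    exact ⟨i, hi⟩
  have h2 : π w ∈ (S' : Subgroup (D ⧸ Cfsg.pCore r D)) := by
    refine mem_sylow_of_commute S' hwE ?_
    intro c hc
    rw [hS'] at hc
    obtain ⟨c₀, hc₀, rfl⟩ := hc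
    exact hcc c₀ hc₀
  rw [hS'] at h2
  obtain ⟨s, hs, hsw⟩ := h2
  have h3 : s⁻¹ * w ∈ Cfsg.pCore r D := by
    have : (s : D ⧸ Cfsg.pCore r D) = (w : D ⧸ Cfsg.pCore r D) := hsw
    exact QuotientGroup.eq.1 this
  have h4 : w = s * (s⁻¹ * w) := by group
  rw [h4]
  exact mul_mem_sup hs h3

/-- A subgroup strictly between two subgroups of prime relative index. -/
theorem eq_of_between {q : ℕ} (hq : q.Prime) {Z₀ T A : Subgroup D}
    (hA : Nat.card A = q * Nat.card Z₀) (h1 : Z₀ ≤ T) (h2 : T ≤ A) (h3 : ¬ T ≤ Z₀) : T = A := by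
  have e1 := card_mul_relIndex h1
  have e2 := card_mul_relIndex h2
  have hpos : 0 < Nat.card Z₀ := Nat.card_pos
  have e3 : Z₀.relIndex T * T.relIndex A = q := by
    have : Nat.card Z₀ * (Z₀.relIndex T * T.relIndex A) = Nat.card Z₀ * q := by
      rw [← mul_assoc, e1, e2, hA, mul_comm]
    exact Nat.eq_of_mul_eq_mul_left hpos this
  have e4 : Z₀.relIndex T ≠ 1 := fun h => h3 (Subgroup.relIndex_eq_one.1 h)
  rcases (Nat.dvd_prime hq).1 (Dvd.intro _ e3) with h | h
  · exact absurd h e4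
  · rw [h] at e3
    have e5 : T.relIndex A = 1 := by
      have := hq.pos
      nlinarith
    exact le_antisymm h2 (Subgroup.relIndex_eq_one.1 e5)

/-- A subgroup with `|Q : Q ∩ Z| = q ^ 2`: commutators are central. -/
theorem comm_mod_center {q : ℕ} [hqF : Fact q.Prime] {Q : Subgroup D}
    (hcard : Nat.card Q = q ^ 2 * Nat.card (Q ⊓ center D : Subgroup D)) :
    ∀ c ∈ Q, ∀ d ∈ Q, c * d * c⁻¹ * d⁻¹ ∈ center D := by
  intro c hc d hd
  let N : Subgroup Q := (center D).subgroupOf Q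
  haveI : N.Normal := Subgroup.normal_subgroupOf
  have e1 : Nat.card N = Nat.card (Q ⊓ center D : Subgroup D) := by
    have h : N = (Q ⊓ center D).subgroupOf Q := by
      ext x
      simp [N, Subgroup.mem_subgroupOf]
    rw [h]
    exact Nat.card_congr (Subgroup.subgroupOfEquivOfLe inf_le_left).toEquiv
  have e2 : Nat.card (Q ⧸ N) = q ^ 2 := by
    have h1 := N.card_mul_index
    rw [e1, hcard] at h1
    have hpos : 0 < Nat.card (Q ⊓ center D : Subgroup D) := Nat.card_pos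
    have h2 : Nat.card (Q ⊓ center D : Subgroup D) * N.index =
        Nat.card (Q ⊓ center D : Subgroup D) * q ^ 2 := by rw [h1]; ring
    exact Nat.eq_of_mul_eq_mul_left hpos h2
  have hcomm := (IsPGroup.isMulCommutative_of_card_eq_prime_sq e2).is_comm.comm
  have h3 := hcomm ((⟨c, hc⟩ : Q) : Q ⧸ N) ((⟨d, hd⟩ : Q) : Q ⧸ N)
  have h4 : (((⟨c, hc⟩ : Q) * ⟨d, hd⟩ : Q) : Q ⧸ N) = (((⟨d, hd⟩ : Q) * ⟨c, hc⟩ : Q) : Q ⧸ N) := h3
  have h5 := QuotientGroup.eq.1 h4
  rw [Subgroup.mem_subgroupOf] at h5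
  have h6 : ((((⟨c, hc⟩ : Q) * ⟨d, hd⟩)⁻¹ * ((⟨d, hd⟩ : Q) * ⟨c, hc⟩) : Q) : D) = (c * d)⁻¹ * (d * c) := rfl
  rw [h6] at h5
  -- conjugate by `c * d`
  have h7 : c * d * c⁻¹ * d⁻¹ = ((c * d)⁻¹ * (d * c))⁻¹ := by
    have hZ := Subgroup.mem_center_iff.1 h5 (c * d)
    have : c * d * ((c * d)⁻¹ * (d * c)) * (c * d)⁻¹ = (c * d)⁻¹ * (d * c) := by
      rw [hZ]
      group
    have h8 : c * d * ((c * d)⁻¹ * (d * c)) * (c * d)⁻¹ = (c * d * c⁻¹ * d⁻¹)⁻¹ := by group
    rw [h8] at this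
    rw [← this]
    group
  rw [h7]
  exact (center D).inv_mem h5

end Generic3

variable {G : Type u} [Group G] [Finite G]

/-- The centralizer of the normal closure. -/
abbrev Kc (y : G) : Subgroup G := centralizer ((Fo y : Subgroup G) : Set G)

instance Kc_normal (y : G) : (Kc y).Normal := by
  haveI : (Fo y).Normal := Subgroup.normalClosure_normal
  exact Subgroup.normal_centralizer

namespace S2Ctx

variable {m n q r a e : ℕ} {H : Hyp G m n} (C : S2Ctx H q r a e)
include C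

variable [hqF : Fact q.Prime] [hrF : Fact r.Prime] {Q : Sylow q G} {u y : G}

theorem mem_Kc_of_cent (P : Pair (Q : Subgroup G) u y q r m) {w : G} (hw : w ∈ cent u) : w ∈ Kc y :=
  Subgroup.mem_centralizer_iff.2 fun _ hf => (C.cent_le_cent_Fo P hw hf).symm

theorem inf_Kc (P : Pair (Q : Subgroup G) u y q r m) :
    (Q : Subgroup G) ⊓ Kc y = (Q : Subgroup G) ⊓ cent y := by
  apply le_antisymm
  · rintro c ⟨hc, hcK⟩
    refine ⟨hc, mem_cent_iff.2 ?_⟩
    exact Subgroup.mem_centralizer_iff.1 hcK y (Subgroup.subset_normalClosure (Set.mem_singleton y))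
  · rw [C.inf_eq P]
    rintro c ⟨hc, hcu⟩
    exact ⟨hc, C.mem_Kc_of_cent P hcu⟩

/-- The centralizer of a noncentral element of `Q ∩ K` lies in `K`. -/
theorem cent_le_Kc (P : Pair (Q : Subgroup G) u y q r m) {b : G} (hbQ : b ∈ (Q : Subgroup G))
    (hbK : b ∈ Kc y) (hbZ : b ∉ center G) : cent b ≤ Kc y := by
  intro w hw
  refine Subgroup.mem_centralizer_iff.2 fun f hf => ?_
  have hfb : f ∈ cent b := mem_cent_iff.2 (Subgroup.mem_centralizer_iff.1 hbK f hf).symm
  have hbE : El q b := El.of_mem Q.2 hbQ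
  have hle := H.cent_le_of_mn (C.cs_q hbE hbZ) hfb (C.coprime_el hbE (C.Fo_el P hf))
  exact mem_cent_iff.1 (hle hw)

theorem card_eq_of_index (K : Subgroup G) (hK : K.index = m ∨ K.index = m * n) :
    ordProj[q] (Nat.card K) * m = ordProj[q] (Nat.card G) := by
  have h := ordProj_card_mul_index (p := q) K
  rwa [H.ordProj_index_of_m C.hq C.hqm hK, C.ordProj_m] at h

/-- `q`-parts of the centralizers. -/
theorem ordProj_eq_card_inf (Q : Sylow q G) (hy : cs y = m) {K : Subgroup G}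
    (hK : K.index = m ∨ K.index = m * n) :
    ordProj[q] (Nat.card K) = Nat.card ((Q : Subgroup G) ⊓ cent y : Subgroup G) := by
  have h1 := C.card_eq_of_index K hK
  have h2 := C.card_inf_of_m Q hy
  rw [card_sylow] at h2
  have hm0 : 0 < m := by have := H.hm; omega
  exact Nat.eq_of_mul_eq_mul_right hm0 (h1.trans h2.symm)

theorem center_le_Kc (y : G) : center G ≤ Kc y := by
  intro z hz
  exact Subgroup.mem_centralizer_iff.2 fun f _ => Subgroup.mem_center_iff.1 hz f

theorem zeta_le_A (y : G) : (Q : Subgroup G) ⊓ center G ≤ (Q : Subgroup G) ⊓ cent y :=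
  inf_le_inf_left _ (center_le_cent y)

/-- The order of `A = C_Q(y)`. -/
theorem card_A (P : Pair (Q : Subgroup G) u y q r m) (hmq : m = q) :
    Nat.card ((Q : Subgroup G) ⊓ cent y : Subgroup G) =
      q * Nat.card ((Q : Subgroup G) ⊓ center G : Subgroup G) := by
  classical
  set A : Subgroup G := (Q : Subgroup G) ⊓ cent y with hA
  set Z₀ : Subgroup G := (Q : Subgroup G) ⊓ center G with hZ₀
  have hAc : Nat.card A * q = Nat.card Q := by
    have := C.card_inf_of_m Q P.hym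
    rwa [hmq] at this
  have hqp := C.hq
  have hmm : cs y = m := P.hym
  -- `ζ < |A|`
  have hlt : Nat.card Z₀ < Nat.card A := by
    have h1 := H.lt_ordProj_of_index C.hqm (K := cent y) (p := q) (Or.inl hmm)
    rw [C.ordProj_eq_card_inf Q hmm (Or.inl hmm), ← card_sylow_inf_center Q] at h1
    exact h1
  -- an element outside `A`
  obtain ⟨g, hgQ, hgA⟩ : ∃ g ∈ (Q : Subgroup G), g ∉ A := by
    by_contra hno
    push Not at hno
    have h1 : (Q : Subgroup G) ≤ A := hno
    have h2 := Nat.le_of_dvd Nat.card_pos (Subgroup.card_dvd_of_le h1)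
    have h3 : 0 < Nat.card A := Nat.card_pos
    have h4 := hqp.one_lt
    have h5 : Nat.card (Q : Subgroup G) = Nat.card Q := rfl
    rw [h5, ← hAc] at h2
    nlinarith
  have hgK : g ∉ Kc y := fun h => hgA (by rw [hA, ← C.inf_Kc P]; exact ⟨hgQ, h⟩)
  have hgZ : g ∉ center G := fun h => hgK (center_le_Kc C y h)
  have hgE : El q g := El.of_mem Q.2 hgQ
  have hcsg := C.cs_q hgE hgZ
  obtain ⟨S, hgS, hSC, hSp, hSc⟩ := exists_sylIn (p := q) (cent g) (zpowers g)
    (zpowers_le.2 (mem_cent_self g)) hgE.isPGroup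
  rw [C.ordProj_eq_card_inf Q hmm (K := cent g) (Or.inr hcsg)] at hSc
  obtain ⟨x, hx⟩ := exists_conjS_le hSp Q
  set S' := conjS x S with hS'
  have hS'c : Nat.card S' = Nat.card A := by rw [hS', card_conjS, hSc]
  set g' := x * g * x⁻¹ with hg'
  have hg'S : g' ∈ S' := conj_mem_conjS (hgS (mem_zpowers g))
  have hg'K : g' ∉ Kc y := by
    intro h
    have h1 := (Kc_normal y).conj_mem g' h x⁻¹
    have h2 : x⁻¹ * g' * x⁻¹⁻¹ = g := by rw [hg']; group
    rw [h2] at h1
    exact hgK h1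
  have hS'C : S' ≤ cent g' := by
    rw [hg', cent_conj]
    exact conjS_le hSC
  have hinf : S' ⊓ A ≤ Z₀ := by
    rintro c ⟨hcS, hcA⟩
    refine ⟨hcA.1, ?_⟩
    by_contra hcZ
    have hcK : c ∈ Kc y := by
      have : c ∈ (Q : Subgroup G) ⊓ Kc y := by rw [C.inf_Kc P]; exact hcA
      exact this.2
    exact hg'K (C.cent_le_Kc P hcA.1 hcK hcZ (mem_cent_comm.1 (hS'C hcS)))
  -- the product
  have hprod := Cfsg.Agent.Lib.Basic.ProductCard.ncard_mul_mul_card_inf S' A
  have hle : ((S' : Set G) * (A : Set G)).ncard ≤ Nat.card Q := by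
    have h1 : ((S' : Set G) * (A : Set G)) ⊆ ((Q : Subgroup G) : Set G) := by
      rintro _ ⟨s, hs, t, ht, rfl⟩
      exact (Q : Subgroup G).mul_mem (hx hs) ht.1
    have h2 := Set.ncard_le_ncard h1 (Set.toFinite _)
    rwa [show (((Q : Subgroup G) : Set G)).ncard = Nat.card Q from
      (Nat.card_coe_set_eq _).symm] at h2
  have hcardle : Nat.card (S' ⊓ A : Subgroup G) ≤ Nat.card Z₀ :=
    Nat.le_of_dvd Nat.card_pos (Subgroup.card_dvd_of_le hinf)
  have hfin : Nat.card A ≤ q * Nat.card Z₀ := by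
    have h3 : Nat.card A * Nat.card A ≤ (Nat.card A * q) * Nat.card Z₀ := by
      calc Nat.card A * Nat.card A = Nat.card S' * Nat.card A := by rw [hS'c]
        _ = ((S' : Set G) * (A : Set G)).ncard * Nat.card (S' ⊓ A : Subgroup G) := hprod.symm
        _ ≤ Nat.card Q * Nat.card Z₀ := Nat.mul_le_mul hle hcardle
        _ = (Nat.card A * q) * Nat.card Z₀ := by rw [hAc]
    have h4 : 0 < Nat.card A := Nat.card_pos
    rw [mul_assoc] at h3
    exact Nat.le_of_mul_le_mul_left h3 h4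
  -- the index
  have hdvd : Nat.card Z₀ ∣ Nat.card A := Subgroup.card_dvd_of_le (zeta_le_A C y)
  obtain ⟨t, ht⟩ := hdvd
  have ht1 : t ≠ 1 := by
    rintro rfl
    omega
  have htd : t ∣ Nat.card A := Dvd.intro_left _ ht.symm
  obtain ⟨k, hk⟩ := IsPGroup.iff_card.1 (Q.2.to_le (inf_le_left : A ≤ (Q : Subgroup G)))
  rw [hk] at htd
  obtain ⟨j, -, hj⟩ := (Nat.dvd_prime_pow hqp).1 htd
  have hj0 : j ≠ 0 := by
    rintro rfl
    rw [pow_zero] at hj
    exact ht1 hj
  have hqt : q ≤ t := by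
    rw [hj]
    exact Nat.le_self_pow hj0 q
  have hZpos : 0 < Nat.card Z₀ := Nat.card_pos
  have htq : t ≤ q := by
    rw [ht] at hfin
    rw [mul_comm] at hfin
    exact Nat.le_of_mul_le_mul_right hfin hZpos
  have : t = q := le_antisymm htq hqt
  rw [ht, this, mul_comm]

theorem card_Q (P : Pair (Q : Subgroup G) u y q r m) (hmq : m = q) :
    Nat.card (Q : Subgroup G) = q ^ 2 * Nat.card ((Q : Subgroup G) ⊓ center G : Subgroup G) := by
  have h1 := C.card_inf_of_m Q P.hym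
  rw [hmq, C.card_A P hmq] at h1
  rw [show Nat.card (Q : Subgroup G) = Nat.card Q from rfl, ← h1]
  ring

/-- Commutators in `Q` are central. -/
theorem Q_comm (P : Pair (Q : Subgroup G) u y q r m) (hmq : m = q) :
    ∀ c ∈ (Q : Subgroup G), ∀ d ∈ (Q : Subgroup G), c * d * c⁻¹ * d⁻¹ ∈ center G :=
  comm_mod_center (C.card_Q P hmq)

theorem u_mem_A (P : Pair (Q : Subgroup G) u y q r m) : u ∈ (Q : Subgroup G) ⊓ cent y :=
  ⟨P.huQ, mem_cent_comm.1 P.hyu⟩

theorem y_notMem_center (P : Pair (Q : Subgroup G) u y q r m) : y ∉ center G :=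
  H.not_center_of_m P.hym

/-- The centralizer of a noncentral element of `A` centralizes `A`. -/
theorem cent_le_centA (P : Pair (Q : Subgroup G) u y q r m) (hmq : m = q) {b : G}
    (hb : b ∈ (Q : Subgroup G) ⊓ cent y) (hbZ : b ∉ center G) {w c : G} (hw : w ∈ cent b)
    (hc : c ∈ (Q : Subgroup G) ⊓ cent y) : w * c = c * w := by
  set A : Subgroup G := (Q : Subgroup G) ⊓ cent y with hA
  have hT : A ⊓ cent w = A := by
    refine eq_of_between C.hq (Z₀ := (Q : Subgroup G) ⊓ center G) (C.card_A P hmq) ?_ inf_le_left ?_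
    · exact le_inf (zeta_le_A C y) (le_trans inf_le_right (center_le_cent w))
    · intro h
      exact hbZ (h ⟨hb, mem_cent_comm.1 hw⟩).2
  have h1 : c ∈ A ⊓ cent w := by rw [hT]; exact hc
  exact mem_cent_iff.1 h1.2

/-- The centralizers of noncentral elements of `A` agree. -/
theorem cent_eq (P : Pair (Q : Subgroup G) u y q r m) (hmq : m = q) {b : G}
    (hb : b ∈ (Q : Subgroup G) ⊓ cent y) (hbZ : b ∉ center G) : cent b = cent u := by
  have hle : cent b ≤ cent u := fun w hw =>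
    mem_cent_comm.1 (mem_cent_iff.2 (C.cent_le_centA P hmq hb hbZ hw (C.u_mem_A P)))
  apply eq_of_le_of_index_eq hle
  have h1 : cs b = m * n := C.cs_q (El.of_mem Q.2 hb.1) hbZ
  have h2 : cs u = m * n := C.cs_q (El.of_mem Q.2 P.huQ) P.huZ
  exact h1.trans h2.symm

/-- `A` is commutative. -/
theorem A_comm (P : Pair (Q : Subgroup G) u y q r m) (hmq : m = q) {c d : G}
    (hc : c ∈ (Q : Subgroup G) ⊓ cent y) (hd : d ∈ (Q : Subgroup G) ⊓ cent y) : c * d = d * c := by
  have hcu : c ∈ cent u := by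
    have h := (C.inf_eq P ▸ hc : c ∈ (Q : Subgroup G) ⊓ cent u)
    exact h.2
  exact C.cent_le_centA P hmq (C.u_mem_A P) P.huZ hcu hd

/-- The index of `C(u)` in `K` is a power of `r`. -/
theorem relIndex_pow (P : Pair (Q : Subgroup G) u y q r m) (hmq : m = q) :
    ∃ k : ℕ, (cent u).relIndex (Kc y) = r ^ k := by
  have hle : cent u ≤ Kc y := fun _ hw => C.mem_Kc_of_cent P hw
  have h1 := Subgroup.relIndex_mul_index hle
  have h2 : (cent u).index = q * r ^ e := by
    have h3 : cs u = m * n := C.cs_q (El.of_mem Q.2 P.huQ) P.huZ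
    rw [hmq, C.hne] at h3
    exact h3
  have h4 : (Kc y).relIndex (Q : Subgroup G) ∣ (Kc y).index :=
    Subgroup.relIndex_dvd_index_of_normal _ _
  have h5 : (Kc y).relIndex (Q : Subgroup G) = q := by
    have h6 : (Kc y ⊓ (Q : Subgroup G)).relIndex (Q : Subgroup G) = (Kc y).relIndex (Q : Subgroup G) :=
      Subgroup.inf_relIndex_right _ _
    rw [← h6, inf_comm, C.inf_Kc P]
    have h7 := card_mul_relIndex (inf_le_left : (Q : Subgroup G) ⊓ cent y ≤ (Q : Subgroup G))
    have h8 := C.card_inf_of_m Q P.hym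
    rw [hmq] at h8
    exact Nat.eq_of_mul_eq_mul_left Nat.card_pos (h7.trans h8.symm)
  rw [h5] at h4
  obtain ⟨t, ht⟩ := h4
  rw [h2, ht] at h1
  have h6 : (cent u).relIndex (Kc y) * t = r ^ e := by
    have hq0 : 0 < q := C.hq.pos
    have : q * ((cent u).relIndex (Kc y) * t) = q * r ^ e := by rw [← h1]; ring
    exact Nat.eq_of_mul_eq_mul_left hq0 this
  obtain ⟨k, -, hk⟩ := (Nat.dvd_prime_pow C.hr).1 (Dvd.intro _ h6)
  exact ⟨k, hk⟩

/-- The `r`-core of `K`, inside `G`. -/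
abbrev Oc (r : ℕ) (y : G) : Subgroup G := (Cfsg.pCore r (Kc y)).map (Kc y).subtype

omit C in
theorem Oc_normal (y : G) : (Oc r y).Normal := by
  haveI : (Cfsg.pCore r (Kc y)).Characteristic := Cfsg.Agent.Lib.Basic.PCore.pCore_char r (Kc y)
  exact Cfsg.Agent.Lib.Basic.PCore.map_subtype_normal_of_characteristic _

omit C in
theorem Oc_isPGroup (y : G) : IsPGroup r (Oc r y) :=
  (Cfsg.Agent.Lib.Basic.PCore.pCore_isPGroup r).map _

omit C in
theorem Oc_le (y : G) : Oc r y ≤ Kc y := by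
  rintro _ ⟨a, -, rfl⟩
  exact a.2

/-- A conjugate of a noncentral element of `A` under `K`. -/
theorem conj_mem_sup (P : Pair (Q : Subgroup G) u y q r m) (hmq : m = q) {k c : G} (hk : k ∈ Kc y)
    (hc : c ∈ (Q : Subgroup G) ⊓ cent y) :
    k * c * k⁻¹ ∈ ((Q : Subgroup G) ⊓ cent y) ⊔ Oc r y := by
  classical
  set A : Subgroup G := (Q : Subgroup G) ⊓ cent y with hA
  by_cases hcZ : c ∈ center G
  · have h1 : k * c * k⁻¹ = c := by
      rw [Subgroup.mem_center_iff.1 hcZ k]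
      group
    rw [h1]
    exact (le_sup_left : A ≤ _) hc
  have hcK : c ∈ Kc y := by
    have : c ∈ (Q : Subgroup G) ⊓ Kc y := by rw [C.inf_Kc P]; exact hc
    exact this.2
  obtain ⟨S, hS⟩ := Cfsg.Agent.Lib.Basic.SylowUtil.exists_sylow_inf_normal Q (Kc y)
  have hSA : (S : Subgroup (Kc y)).map (Kc y).subtype = A := by rw [hS, C.inf_Kc P]
  let x : Kc y := ⟨c, hcK⟩
  have hxS : x ∈ (S : Subgroup (Kc y)) := by
    have : c ∈ (S : Subgroup (Kc y)).map (Kc y).subtype := by rw [hSA]; exact hc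
    obtain ⟨t, ht, hte⟩ := this
    have : t = x := Subtype.ext hte
    rwa [← this]
  obtain ⟨j, hj⟩ := C.relIndex_pow P hmq
  have hcs : cs x = r ^ j := by
    rw [cs_subtype]
    show (cent c).relIndex (Kc y) = r ^ j
    rw [C.cent_eq P hmq hc hcZ]
    exact hj
  have hgen : ∀ c' ∈ (S : Subgroup (Kc y)), ∀ T : Subgroup (Kc y), x ∈ T →
      (S : Subgroup (Kc y)) ⊓ center (Kc y) ≤ T → c' ∈ T := by
    intro c' hc' T hxT hZT
    have hT' : T.map (Kc y).subtype ⊓ A = A := by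
      refine eq_of_between C.hq (Z₀ := (Q : Subgroup G) ⊓ center G) (C.card_A P hmq) ?_ inf_le_right ?_
      · rintro z ⟨hzQ, hzZ⟩
        have hzA : z ∈ A := zeta_le_A C y ⟨hzQ, hzZ⟩
        refine ⟨⟨⟨z, center_le_Kc C y hzZ⟩, ?_, rfl⟩, hzA⟩
        apply hZT
        refine ⟨?_, ?_⟩
        · have : z ∈ (S : Subgroup (Kc y)).map (Kc y).subtype := by rw [hSA]; exact hzA
          obtain ⟨t, ht, hte⟩ := this
          have : t = ⟨z, center_le_Kc C y hzZ⟩ := Subtype.ext hte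
          rwa [← this]
        · exact Subgroup.mem_center_iff.2 fun g => Subtype.ext (Subgroup.mem_center_iff.1 hzZ g)
      · intro h
        exact hcZ (h ⟨⟨x, hxT, rfl⟩, hc⟩).2
    have h1 : (c' : G) ∈ A := by
      rw [← hSA]
      exact ⟨c', hc', rfl⟩
    rw [← hT'] at h1
    obtain ⟨t, ht, hte⟩ := h1.1
    have : t = c' := Subtype.ext hte
    rwa [← this]
  have h1 := conj_mem_sup_pCore S hxS hcs hgen ⟨k, hk⟩
  have h2 : ((⟨k, hk⟩ * x * (⟨k, hk⟩ : Kc y)⁻¹ : Kc y) : G) ∈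
      ((S : Subgroup (Kc y)) ⊔ Cfsg.pCore r (Kc y)).map (Kc y).subtype := ⟨_, h1, rfl⟩
  rw [Subgroup.map_sup, hSA] at h2
  exact h2

/-- The order of `A`, in terms of `K`. -/
theorem card_A_eq_K (P : Pair (Q : Subgroup G) u y q r m) :
    Nat.card ((Q : Subgroup G) ⊓ cent y : Subgroup G) = ordProj[q] (Nat.card (Kc y)) := by
  obtain ⟨S, hS⟩ := Cfsg.Agent.Lib.Basic.SylowUtil.exists_sylow_inf_normal Q (Kc y)
  have hSA : (S : Subgroup (Kc y)).map (Kc y).subtype = (Q : Subgroup G) ⊓ cent y := by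
    rw [hS, C.inf_Kc P]
  rw [← hSA, Nat.card_congr ((S : Subgroup (Kc y)).equivMapOfInjective (Kc y).subtype
    (Kc y).subtype_injective).toEquiv.symm]
  exact card_sylow S

/-- The Frattini-type argument: conjugates of `A` are conjugates under the `r`-core. -/
theorem exists_conj_O (P : Pair (Q : Subgroup G) u y q r m) (hmq : m = q) (g : G) :
    ∃ ρ ∈ Oc r y, conjS g ((Q : Subgroup G) ⊓ cent y) = conjS ρ ((Q : Subgroup G) ⊓ cent y) := by
  classical
  set A : Subgroup G := (Q : Subgroup G) ⊓ cent y with hA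
  haveI hOn : (Oc r y).Normal := Oc_normal y
  have hAK : A ≤ Kc y := by
    have : A = (Q : Subgroup G) ⊓ Kc y := (C.inf_Kc P).symm
    rw [this]
    exact inf_le_right
  have hcA : Nat.card A = ordProj[q] (Nat.card (Kc y)) := C.card_A_eq_K P
  have hgK : conjS g A ≤ Kc y := by
    intro c hc
    have h1 := hAK (mem_conjS.1 hc)
    have h2 := (Kc_normal y).conj_mem _ h1 g
    have h3 : g * (g⁻¹ * c * g) * g⁻¹ = c := by group
    rwa [h3] at h2
  obtain ⟨k, hk, hkg⟩ := exists_conj_of_sylIn (q := q) hAK hgK hcA (by rw [card_conjS, hcA])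
  set T : Subgroup G := A ⊔ Oc r y with hT
  have hTK : T ≤ Kc y := sup_le hAK (Oc_le y)
  have hAT : A ≤ T := le_sup_left
  have hAp : IsPGroup q A := Q.2.to_le inf_le_left
  have hcT : Nat.card A = ordProj[q] (Nat.card T) := by
    apply Nat.dvd_antisymm
    · exact card_dvd_ordProj hAT hAp
    · rw [hcA]
      have h1 := Subgroup.card_dvd_of_le hTK
      exact (Nat.ordProj_dvd_ordProj_of_dvd (Nat.card_pos.ne') h1 q)
  have hkT : conjS k A ≤ T := by
    intro c hc
    have h1 := C.conj_mem_sup P hmq hk (mem_conjS.1 hc)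
    have h2 : k * (k⁻¹ * c * k) * k⁻¹ = c := by group
    rw [h2] at h1
    exact h1
  obtain ⟨t, ht, htk⟩ := exists_conj_of_sylIn (q := q) hAT hkT hcT (by rw [card_conjS, hcT])
  have ht' : t ∈ Oc r y ⊔ A := by rw [sup_comm]; exact ht
  obtain ⟨ρ, hρ, c, hc, rfl⟩ := Subgroup.mem_sup_of_normal_left.1 ht'
  refine ⟨ρ, hρ, ?_⟩
  rw [← hkg, ← htk, conjS_mul, conjS_eq_of_mem hc]

end S2Ctx

end Cfsg.Agent.Lib.Nilpotent.OneMMN
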