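import Mathlib
import Cfsg.Agent.Lib.Nilpotent.OneMMN.PartC2

/-!
# The special case cannot occur
-/

set_option autoImplicit false

namespace Cfsg.Agent.Lib.Nilpotent.OneMMN

open Subgroup Cfsg.Agent.Lib.ClassSize.Basic Cfsg.Agent.Lib.ClassSize.Coprime
open scoped Pointwise

universe u

variable {G : Type u} [Group G] [Finite G]

/-- The `r`-core contains an element with no conjugate in a proper subgroup. -/
theorem exists_bad_conj {O B : Subgroup G} (h : ¬ O ≤ B) :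
    ∃ ρ ∈ O, ∀ σ ∈ O, σ * ρ * σ⁻¹ ∉ B := by
  by_contra hno
  push Not at hno
  apply h
  have h1 : B.subgroupOf O = ⊤ := by
    apply Cfsg.Agent.Lib.Basic.JordanCover.eq_top_of_forall_conj_mem
    rintro ⟨g, hg⟩
    obtain ⟨σ, hσ, hb⟩ := hno g hg
    refine ⟨⟨σ, hσ⟩, ?_⟩
    rw [Subgroup.mem_subgroupOf]
    exact hb
  intro x hx
  have h2 : (⟨x, hx⟩ : O) ∈ B.subgroupOf O := by rw [h1]; trivial
  rwa [Subgroup.mem_subgroupOf] at h2

namespace S2Ctx

variable {m n q r a e : ℕ} {H : Hyp G m n} (C : S2Ctx H q r a e)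
include C

variable [hqF : Fact q.Prime] [hrF : Fact r.Prime] {Q : Sylow q G} {u y : G}

/-- `ζ < |A|`. -/
theorem zeta_lt (P : Pair (Q : Subgroup G) u y q r m) :
    ordProj[q] (Nat.card (center G)) < Nat.card ((Q : Subgroup G) ⊓ cent y : Subgroup G) := by
  have h1 := H.lt_ordProj_of_index C.hqm (K := cent y) (p := q) (Or.inl P.hym)
  rwa [C.ordProj_eq_card_inf Q P.hym (Or.inl P.hym)] at h1

/-- A `q`-subgroup of a centralizer conjugated into `Q`, containing a noncentral element. -/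
theorem exists_noncentral_conj (P : Pair (Q : Subgroup G) u y q r m) {w : G} (hw : w ∉ center G) :
    ∃ (x : G) (S : Subgroup G), S ≤ (Q : Subgroup G) ∧ S ≤ cent (x * w * x⁻¹) ∧
      Nat.card S = Nat.card ((Q : Subgroup G) ⊓ cent y : Subgroup G) ∧
      ∃ b ∈ S, b ∉ center G := by
  obtain ⟨S, -, hSC, hSp, hSc⟩ := exists_sylIn (p := q) (cent w) ⊥ bot_le IsPGroup.of_bot
  rw [C.ordProj_eq_card_inf Q P.hym (K := cent w) (H.cs_noncentral hw)] at hSc
  obtain ⟨x, hx⟩ := exists_conjS_le hSp Q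
  have hc : Nat.card (conjS x S) = Nat.card ((Q : Subgroup G) ⊓ cent y : Subgroup G) := by
    rw [card_conjS, hSc]
  obtain ⟨b, hb, hbZ⟩ := exists_notMem_of_card_gt (Z₀ := center G) (isPGroup_conjS hSp : IsPGroup q (conjS x S))
    (by rw [hc]; exact C.zeta_lt P)
  refine ⟨x, conjS x S, hx, ?_, hc, b, hb, hbZ⟩
  rw [cent_conj]
  exact conjS_le hSC

/-- The `r`-core centralizes `A`. -/
theorem O_le_centA (P : Pair (Q : Subgroup G) u y q r m) (hmq : m = q) :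
    Oc r y ≤ centralizer (((Q : Subgroup G) ⊓ cent y : Subgroup G) : Set G) := by
  classical
  set A : Subgroup G := (Q : Subgroup G) ⊓ cent y with hA
  by_contra hcon
  obtain ⟨ρ, hρO, hbad⟩ := exists_bad_conj hcon
  haveI hOn : (Oc r y).Normal := Oc_normal y
  have hρZ : ρ ∉ center G := by
    intro h
    apply hbad 1 (Oc r y).one_mem
    rw [one_mul, inv_one, mul_one]
    exact Subgroup.mem_centralizer_iff.2 fun c _ => Subgroup.mem_center_iff.1 h c
  obtain ⟨x, S', hS'Q, hS'C, hS'c, b, hbS, hbZ⟩ := C.exists_noncentral_conj P hρZ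
  set ρ' := x * ρ * x⁻¹ with hρ'
  have hρ'O : ρ' ∈ Oc r y := hOn.conj_mem ρ hρO x
  have hρ'Z : ρ' ∉ center G := by
    intro h
    apply hρZ
    have h1 := (inferInstance : (center G).Normal).conj_mem ρ' h x⁻¹
    have h2 : x⁻¹ * ρ' * x⁻¹⁻¹ = ρ := by rw [hρ']; group
    rwa [h2] at h1
  have hρ'E : El r ρ' := El.of_mem (Oc_isPGroup y) hρ'O
  have hAZ : u ∈ A := C.u_mem_A P
  -- `S' ∩ A` is central
  have hinf : ∀ c ∈ S', c ∈ A → c ∈ center G := by
    intro c hcS hcA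
    by_contra hcZ
    have hρc : ρ' ∈ cent c := mem_cent_comm.1 (hS'C hcS)
    have hcentA : ∀ d ∈ A, ρ' * d = d * ρ' := fun d hd =>
      C.cent_le_centA P hmq hcA hcZ hρc hd
    obtain ⟨σ, hσ, hσe⟩ := C.exists_conj_O P hmq x⁻¹
    apply hbad σ⁻¹ ((Oc r y).inv_mem hσ)
    refine Subgroup.mem_centralizer_iff.2 fun d hd => ?_
    have h1 : σ * d * σ⁻¹ ∈ conjS σ A := conj_mem_conjS hd
    rw [← hσe, mem_conjS] at h1
    have h2 := hcentA _ h1
    -- transport the relation back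
    rw [inv_inv] at *
    have h3 : ρ' * (x * (σ * d * σ⁻¹) * x⁻¹) = x * (ρ * (σ * d * σ⁻¹)) * x⁻¹ := by
      rw [hρ']; group
    have h4 : (x * (σ * d * σ⁻¹) * x⁻¹) * ρ' = x * ((σ * d * σ⁻¹) * ρ) * x⁻¹ := by
      rw [hρ']; group
    rw [h3, h4] at h2
    have h5 : ρ * (σ * d * σ⁻¹) = (σ * d * σ⁻¹) * ρ := by
      have h6 := mul_left_cancel (mul_right_cancel h2)
      exact h6
    have h7 : d * (σ⁻¹ * ρ * σ) = σ⁻¹ * ((σ * d * σ⁻¹) * ρ) * σ := by group
    have h8 : (σ⁻¹ * ρ * σ) * d = σ⁻¹ * (ρ * (σ * d * σ⁻¹)) * σ := by group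
    rw [h7, h8, h5]
  have hbA : b ∉ A := fun h => hbZ (hinf b hbS h)
  have hbQ := hS'Q hbS
  have hbK : b ∉ Kc y := fun h => hbA (by
    rw [hA, ← C.inf_Kc P]
    exact ⟨hbQ, h⟩)
  have hbE : El q b := El.of_mem Q.2 hbQ
  have hbρ' : b ∈ cent ρ' := hS'C hbS
  have hρ'b : ρ' ∈ cent b := mem_cent_comm.1 hbρ'
  have hFρ : ∀ f ∈ Fo y, ρ' * f = f * ρ' := fun f hf =>
    (Subgroup.mem_centralizer_iff.1 (Oc_le y hρ'O) f hf).symm
  -- `ρ'` has size `m`
  have hcsρ' : cs ρ' = m := by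
    refine (H.cs_noncentral hρ'Z).resolve_right fun h => hbK ?_
    have hle := H.cent_le_of_mn h hbρ' (C.coprime_el hbE hρ'E).symm
    refine Subgroup.mem_centralizer_iff.2 fun f hf => ?_
    have h1 : f ∈ cent ρ' := mem_cent_iff.2 (hFρ f hf)
    exact (mem_cent_iff.1 (hle h1)).symm
  have P₂ : Pair (Q : Subgroup G) b ρ' q r m :=
    ⟨hbQ, hbZ, fun c hc => C.Q_comm P hmq c hc b hbQ, hρ'E, hcsρ', hρ'b⟩
  set A₂ : Subgroup G := (Q : Subgroup G) ⊓ cent ρ' with hA₂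
  have hS'A₂ : S' = A₂ := by
    apply Subgroup.eq_of_le_of_card_ge (le_inf hS'Q hS'C)
    have h1 := C.card_inf_of_m Q P.hym
    have h2 := C.card_inf_of_m Q P₂.hym
    have hm0 : 0 < m := by have := H.hm; omega
    have h3 : Nat.card A = Nat.card A₂ := Nat.eq_of_mul_eq_mul_right hm0 (h1.trans h2.symm)
    rw [hS'c, ← h3]
  have hAA₂ : ∀ c ∈ A, c ∈ A₂ → c ∈ center G := fun c hc hc₂ => hinf c (hS'A₂ ▸ hc₂) hc
  set F₂ := Fo ρ' with hF₂
  have hF₂O : F₂ ≤ Oc r y := Fo_le_of_forall fun g => hOn.conj_mem ρ' hρ'O g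
  -- `F ∩ F₂` is central
  have hFF : ∀ f ∈ Fo y, f ∈ F₂ → f ∈ center G := by
    intro f hf hf₂
    by_contra hfZ
    have h1 := C.inf_eq_of_mem P hf hfZ
    have h2 := C.inf_eq_of_mem P₂ hf₂ hfZ
    have h3 : A = A₂ := h1.symm.trans h2
    exact P.huZ (hAA₂ u hAZ (h3 ▸ hAZ))
  -- `y ρ'` is noncentral
  set f₀ := y * ρ' with hf₀
  have hf₀Z : f₀ ∉ center G := by
    intro h
    apply P.huZ
    refine hAA₂ u hAZ ⟨P.huQ, mem_cent_iff.2 ?_⟩
    have h1 : u * y = y * u := mem_cent_iff.1 (C.u_mem_A P).2 |>.symm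
    have h2 : u * (y * ρ') = (y * ρ') * u := (Subgroup.mem_center_iff.1 h u)
    have h3 : y * (u * ρ') = y * (ρ' * u) := by
      calc y * (u * ρ') = (y * u) * ρ' := by group
        _ = (u * y) * ρ' := by rw [h1]
        _ = u * (y * ρ') := by group
        _ = (y * ρ') * u := h2
        _ = y * (ρ' * u) := by group
    exact (mul_left_cancel h3).symm
  obtain ⟨x₀, S₁, hS₁Q, hS₁C, -, d, hdS, hdZ⟩ := C.exists_noncentral_conj P hf₀Z
  set y₁ := x₀ * y * x₀⁻¹ with hy₁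
  set ρ₁ := x₀ * ρ' * x₀⁻¹ with hρ₁
  have hy₁F : y₁ ∈ Fo y := conj_mem_Fo y x₀
  have hρ₁F : ρ₁ ∈ F₂ := conj_mem_Fo ρ' x₀
  have hdQ := hS₁Q hdS
  have hdE : El q d := El.of_mem Q.2 hdQ
  have hdc : d * (y₁ * ρ₁) = (y₁ * ρ₁) * d := by
    have h1 : x₀ * f₀ * x₀⁻¹ = y₁ * ρ₁ := by rw [hf₀, hy₁, hρ₁]; group
    have h2 := hS₁C hdS
    rw [h1] at h2
    exact (mem_cent_iff.1 h2).symm
  set z := y₁⁻¹ * (d * y₁ * d⁻¹) with hz
  have hz' : z = ρ₁ * (d * ρ₁ * d⁻¹)⁻¹ := by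
    have h1 : (d * y₁ * d⁻¹) * (d * ρ₁ * d⁻¹) = y₁ * ρ₁ := by
      calc (d * y₁ * d⁻¹) * (d * ρ₁ * d⁻¹) = (d * (y₁ * ρ₁)) * d⁻¹ := by group
        _ = y₁ * ρ₁ := by rw [hdc]; group
    rw [hz]
    have h2 : d * y₁ * d⁻¹ = y₁ * ρ₁ * (d * ρ₁ * d⁻¹)⁻¹ := by
      rw [← h1]; group
    rw [h2]
    group
  have hzF : z ∈ Fo y := (Fo y).mul_mem ((Fo y).inv_mem hy₁F)
    ((Subgroup.normalClosure_normal).conj_mem y₁ hy₁F d)
  have hzF₂ : z ∈ F₂ := by
    rw [hz']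
    exact F₂.mul_mem hρ₁F (F₂.inv_mem ((Subgroup.normalClosure_normal).conj_mem ρ₁ hρ₁F d))
  have hzZ := hFF z hzF hzF₂
  have hy₁E : El r y₁ := P.hyE.conj x₀
  have hρ₁E : El r ρ₁ := hρ'E.conj x₀
  have hdy : d * y₁ * d⁻¹ = y₁ := by
    have h1 : d * y₁ * d⁻¹ = z * y₁ := by
      rw [Subgroup.mem_center_iff.1 hzZ y₁ |>.symm, hz]
      group
    have h2 := coprime_lift C.hq C.hr C.hqr hdE hy₁E hzZ h1
    rw [h1, h2, one_mul]
  have hdρ : d * ρ₁ * d⁻¹ = ρ₁ := by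
    have h0 : z = 1 := by
      rw [hz, hdy]
      group
    rw [h0] at hz'
    exact (mul_inv_eq_one.1 hz'.symm).symm
  have hy₁Z : y₁ ∉ center G := by
    intro h
    apply H.not_center_of_m P.hym
    have h1 := (inferInstance : (center G).Normal).conj_mem y₁ h x₀⁻¹
    have h2 : x₀⁻¹ * y₁ * x₀⁻¹⁻¹ = y := by rw [hy₁]; group
    rwa [h2] at h1
  have hρ₁Z : ρ₁ ∉ center G := by
    intro h
    apply hρ'Z
    have h1 := (inferInstance : (center G).Normal).conj_mem ρ₁ h x₀⁻¹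
    have h2 : x₀⁻¹ * ρ₁ * x₀⁻¹⁻¹ = ρ' := by rw [hρ₁]; group
    rwa [h2] at h1
  have hcomm_of : ∀ w : G, d * w * d⁻¹ = w → d ∈ cent w := fun w hw =>
    mem_cent_iff.2 (by
      calc w * d = (d * w * d⁻¹) * d := by rw [hw]
        _ = d * w := by group)
  have hdA : d ∈ A := by
    have h1 := C.inf_eq_of_mem P hy₁F hy₁Z
    rw [hA, ← h1]
    exact ⟨hdQ, hcomm_of _ hdy⟩
  have hdA₂ : d ∈ A₂ := by
    have h1 := C.inf_eq_of_mem P₂ hρ₁F hρ₁Z
    rw [hA₂, ← h1]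
    exact ⟨hdQ, hcomm_of _ hdρ⟩
  exact hdZ (hAA₂ d hdA hdA₂)

/-- `A` is normal. -/
theorem A_normal (P : Pair (Q : Subgroup G) u y q r m) (hmq : m = q) {g c : G}
    (hc : c ∈ (Q : Subgroup G) ⊓ cent y) : g * c * g⁻¹ ∈ (Q : Subgroup G) ⊓ cent y := by
  obtain ⟨ρ, hρ, hg⟩ := C.exists_conj_O P hmq g
  have h1 : g * c * g⁻¹ ∈ conjS g ((Q : Subgroup G) ⊓ cent y) := conj_mem_conjS hc
  rw [hg, mem_conjS] at h1
  have h2 := Subgroup.mem_centralizer_iff.1 (C.O_le_centA P hmq hρ) _ h1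
  have h3 : ρ * (ρ⁻¹ * (g * c * g⁻¹) * ρ) = g * c * g⁻¹ * ρ := by group
  rw [h3] at h2
  have h4 : ρ⁻¹ * (g * c * g⁻¹) * ρ = g * c * g⁻¹ := mul_right_cancel h2
  rwa [h4] at h1

/-- Counting in `A`: `r ^ e < q`. -/
theorem r_pow_lt (P : Pair (Q : Subgroup G) u y q r m) (hmq : m = q) : r ^ e < q := by
  classical
  obtain ⟨R⟩ : Nonempty (Sylow r G) := inferInstance
  set A : Subgroup G := (Q : Subgroup G) ⊓ cent y with hA
  let R₀ : Subgroup (R : Subgroup G) := (cent u).subgroupOf (R : Subgroup G)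
  have huE : El q u := El.of_mem Q.2 P.huQ
  have hcsu : cs u = m * n := C.cs_q huE P.huZ
  -- `|R : R₀| ≥ r ^ e`
  have hge : r ^ e ≤ R₀.index := by
    have h1 : R₀.index = (cent u).relIndex (R : Subgroup G) := rfl
    have h2 : (cent u ⊓ (R : Subgroup G)).relIndex (R : Subgroup G) =
        (cent u).relIndex (R : Subgroup G) := Subgroup.inf_relIndex_right _ _
    have h3 := card_mul_relIndex (inf_le_right : cent u ⊓ (R : Subgroup G) ≤ (R : Subgroup G))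
    rw [h2, ← h1, show Nat.card (R : Subgroup G) = Nat.card R from rfl, card_sylow R] at h3
    have h4 := ordProj_card_mul_index (p := r) (cent u)
    have h5 : ordProj[r] (cent u).index = r ^ e := by
      show ordProj[r] (cs u) = r ^ e
      rw [hcsu, H.ordProj_mn C.hr C.hrn, C.hne, Nat.factorization_pow, Nat.Prime.factorization C.hr]
      simp
    rw [h5] at h4
    have h6 := card_dvd_ordProj (p := r) (inf_le_left : cent u ⊓ (R : Subgroup G) ≤ cent u)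
      (R.2.to_le inf_le_right)
    have h7 := Nat.le_of_dvd (Nat.ordProj_pos _ _) h6
    by_contra hlt
    push Not at hlt
    have hpos : 0 < ordProj[r] (Nat.card (cent u)) := Nat.ordProj_pos _ _
    have h8 : Nat.card (cent u ⊓ (R : Subgroup G) : Subgroup G) * R₀.index <
        ordProj[r] (Nat.card (cent u)) * r ^ e :=
      lt_of_le_of_lt (Nat.mul_le_mul_right _ h7) (Nat.mul_lt_mul_of_pos_left hlt hpos)
    omega
  -- the section
  let Z₁ : Subgroup A := (center G).subgroupOf A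
  haveI : Z₁.Normal := Subgroup.normal_subgroupOf
  have hX : Nat.card (A ⧸ Z₁) = q := by
    have e1 : Nat.card Z₁ = Nat.card ((Q : Subgroup G) ⊓ center G : Subgroup G) := by
      have h : Z₁ = ((Q : Subgroup G) ⊓ center G).subgroupOf A := by
        ext x
        simp only [Z₁, Subgroup.mem_subgroupOf, Subgroup.mem_inf]
        exact ⟨fun h => ⟨x.2.1, h⟩, fun h => h.2⟩
      rw [h]
      exact Nat.card_congr (Subgroup.subgroupOfEquivOfLe (zeta_le_A C y)).toEquiv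
    have h1 := Z₁.card_mul_index
    rw [e1, C.card_A P hmq] at h1
    have hpos : 0 < Nat.card ((Q : Subgroup G) ⊓ center G : Subgroup G) := Nat.card_pos
    have h2 : Nat.card ((Q : Subgroup G) ⊓ center G : Subgroup G) * Z₁.index =
        Nat.card ((Q : Subgroup G) ⊓ center G : Subgroup G) * q := by rw [h1]; ring
    exact Nat.eq_of_mul_eq_mul_left hpos h2
  have huA : u ∈ A := C.u_mem_A P
  let f : ↥(R : Subgroup G) → A := fun ρ => ⟨(ρ : G) * u * (ρ : G)⁻¹, C.A_normal P hmq huA⟩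
  let φ : ↥(R : Subgroup G) ⧸ R₀ → A ⧸ Z₁ := fun ξ => (f ξ.out : A ⧸ Z₁)
  have hinj : Function.Injective φ := by
    intro ξ₁ ξ₂ h12
    have h1 := QuotientGroup.eq.1 h12
    rw [Subgroup.mem_subgroupOf] at h1
    set ρ₁ : G := ((ξ₁.out : ↥(R : Subgroup G)) : G) with hρ₁
    set ρ₂ : G := ((ξ₂.out : ↥(R : Subgroup G)) : G) with hρ₂
    have h2 : (ρ₁ * u * ρ₁⁻¹)⁻¹ * (ρ₂ * u * ρ₂⁻¹) ∈ center G := h1
    set z := (ρ₁ * u * ρ₁⁻¹)⁻¹ * (ρ₂ * u * ρ₂⁻¹) with hz
    set w := ρ₁⁻¹ * ρ₂ with hw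
    have hwR : w ∈ (R : Subgroup G) :=
      (R : Subgroup G).mul_mem ((R : Subgroup G).inv_mem (ξ₁.out).2) (ξ₂.out).2
    have hwE : El r w := El.of_mem R.2 hwR
    have h3 : w * u * w⁻¹ = z * u := by
      have h4 : ρ₂ * u * ρ₂⁻¹ = (ρ₁ * u * ρ₁⁻¹) * z := by rw [hz]; group
      calc w * u * w⁻¹ = ρ₁⁻¹ * (ρ₂ * u * ρ₂⁻¹) * ρ₁ := by rw [hw]; group
        _ = ρ₁⁻¹ * ((ρ₁ * u * ρ₁⁻¹) * z) * ρ₁ := by rw [h4]
        _ = u * (ρ₁⁻¹ * (z * ρ₁)) := by group
        _ = u * (ρ₁⁻¹ * (ρ₁ * z)) := by rw [Subgroup.mem_center_iff.1 h2 ρ₁]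
        _ = u * z := by group
        _ = z * u := (Subgroup.mem_center_iff.1 h2 u)
    have h5 := coprime_lift C.hr C.hq C.hqr.symm hwE huE h2 h3
    rw [h5, one_mul] at h3
    have h6 : w ∈ cent u := mem_cent_iff.2 (by
      calc u * w = (w * u * w⁻¹) * w := by rw [h3]
        _ = w * u := by group)
    have h7 : (ξ₁.out)⁻¹ * ξ₂.out ∈ R₀ := by
      rw [Subgroup.mem_subgroupOf]
      exact h6
    rw [← QuotientGroup.out_eq' ξ₁, ← QuotientGroup.out_eq' ξ₂]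
    exact QuotientGroup.eq.2 h7
  have hne : (1 : A ⧸ Z₁) ∉ Set.range φ := by
    rintro ⟨ξ, hξ⟩
    have h1 : f ξ.out ∈ Z₁ := (QuotientGroup.eq_one_iff _).1 hξ
    rw [Subgroup.mem_subgroupOf] at h1
    have h2 : (ξ.out : G) * u * (ξ.out : G)⁻¹ ∈ center G := h1
    apply P.huZ
    have h3 := (inferInstance : (center G).Normal).conj_mem _ h2 (ξ.out : G)⁻¹
    have h4 : (ξ.out : G)⁻¹ * ((ξ.out : G) * u * (ξ.out : G)⁻¹) * (ξ.out : G)⁻¹⁻¹ = u := by group
    rwa [h4] at h3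
  have hlt : Nat.card (↥(R : Subgroup G) ⧸ R₀) < Nat.card (A ⧸ Z₁) := by
    haveI := Fintype.ofFinite (↥(R : Subgroup G) ⧸ R₀)
    haveI := Fintype.ofFinite (A ⧸ Z₁)
    rw [Nat.card_eq_fintype_card, Nat.card_eq_fintype_card]
    exact Fintype.card_lt_of_injective_of_notMem φ hinj hne
  rw [hX] at hlt
  have hidx : Nat.card (↥(R : Subgroup G) ⧸ R₀) = R₀.index := rfl
  rw [hidx] at hlt
  omega

/-- The contradiction. -/
theorem false_of_pair (P : Pair (Q : Subgroup G) u y q r m) (hmq : m = q) : False := by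
  classical
  have hlt := C.r_pow_lt P hmq
  set A : Subgroup G := (Q : Subgroup G) ⊓ cent y with hA
  have hAc : Nat.card A * q = Nat.card Q := by
    have := C.card_inf_of_m Q P.hym
    rwa [hmq] at this
  obtain ⟨g, hgQ, hgA⟩ : ∃ g ∈ (Q : Subgroup G), g ∉ A := by
    by_contra hno
    push Not at hno
    have h1 : (Q : Subgroup G) ≤ A := hno
    have h2 := Nat.le_of_dvd Nat.card_pos (Subgroup.card_dvd_of_le h1)
    have h3 : 0 < Nat.card A := Nat.card_pos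
    have h4 := C.hq.one_lt
    have h5 : Nat.card (Q : Subgroup G) = Nat.card Q := rfl
    rw [h5, ← hAc] at h2
    nlinarith
  have hgE : El q g := El.of_mem Q.2 hgQ
  have hgZ : g ∉ center G := fun h => hgA ⟨hgQ, center_le_cent y h⟩
  have hcsg := C.cs_q hgE hgZ
  set F := Fo y with hF
  haveI hFn : F.Normal := Subgroup.normalClosure_normal
  set F₀ : Subgroup G := F ⊓ center G with hF₀
  have hfix : ∀ w ∈ F, w ∉ center G → g * w * g⁻¹ ≠ w := by
    intro w hw hwZ hfix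
    apply hgA
    have h1 := C.inf_eq_of_mem P hw hwZ
    rw [hA, ← h1]
    refine ⟨hgQ, mem_cent_iff.2 ?_⟩
    calc w * g = (g * w * g⁻¹) * g := by rw [hfix]
      _ = g * w := by group
  have hmod : Nat.card F ≡ Nat.card F₀ [MOD q] := by
    refine card_modEq_of_fix (Q := zpowers g) (W := F) (W₀ := F₀) hgE.isPGroup
      (fun c _ w hw => hFn.conj_mem w hw c) inf_le_left ?_ ?_
    · intro c _ z hz
      rw [Subgroup.mem_center_iff.1 hz.2 c]
      group
    · intro w hw hfw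
      refine ⟨hw, ?_⟩
      by_contra hwZ
      exact hfix w hw hwZ (hfw g (mem_zpowers g))
  have h1 := card_mul_relIndex (inf_le_left : F₀ ≤ F)
  set i := F₀.relIndex F with hi
  have hFp : IsPGroup r F := C.Fo_isPGroup P
  obtain ⟨k, hk⟩ := IsPGroup.iff_card.1 hFp
  have hcop : Nat.Coprime (Nat.card F₀) q := by
    obtain ⟨k₀, hk₀⟩ := IsPGroup.iff_card.1 (hFp.to_le (inf_le_left : F₀ ≤ F))
    rw [hk₀]
    exact Nat.Coprime.pow_left _ ((Nat.coprime_primes C.hr C.hq).2 C.hqr.symm)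
  have hi1 : i ≡ 1 [MOD q] := by
    rw [← h1] at hmod
    have h2 : Nat.card F₀ * i ≡ Nat.card F₀ * 1 [MOD q] := by rwa [mul_one]
    exact Nat.ModEq.cancel_left_of_coprime (by rw [Nat.gcd_comm]; exact hcop) h2
  have hine : i ≠ 1 := by
    intro h
    apply C.not_le_center P
    have h2 : F ≤ F₀ := Subgroup.relIndex_eq_one.1 h
    exact fun x hx => (h2 hx).2
  have hipos : 0 < i := by
    rcases Nat.eq_zero_or_pos i with h | h
    · rw [h, mul_zero] at h1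
      have : 0 < Nat.card F := Nat.card_pos
      omega
    · exact h
  -- `i ≥ q + 1`
  have hige : q + 1 ≤ i := by
    have h2 : q ∣ i - 1 := (Nat.modEq_iff_dvd' hipos).1 hi1.symm
    have h3 : 0 < i - 1 := by omega
    have h4 := Nat.le_of_dvd h3 h2
    omega
  -- `i` divides the class size of `g`
  have hdvd : i ∣ (cent g).index := by
    have h2 := relIndex_dvd_index_of_normal_right (cent g) F
    have h3 : (cent g ⊓ F).relIndex F = (cent g).relIndex F := Subgroup.inf_relIndex_right _ _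
    have h4 : cent g ⊓ F = F₀ := by
      apply le_antisymm
      · rintro w ⟨hwc, hwF⟩
        refine ⟨hwF, ?_⟩
        by_contra hwZ
        apply hfix w hwF hwZ
        rw [(mem_cent_iff.1 hwc)]
        group
      · rintro w ⟨hwF, hwZ⟩
        exact ⟨center_le_cent g hwZ, hwF⟩
    rw [h4] at h3
    rw [hi, h3]
    exact h2
  have hcsg' : (cent g).index = q * r ^ e := by
    have : cs g = m * n := hcsg
    rw [hmq, C.hne] at this
    exact this
  rw [hcsg'] at hdvd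
  have hidvd : i ∣ r ^ k := by
    rw [← hk, ← h1]
    exact Dvd.intro_left _ rfl
  obtain ⟨j, -, hj⟩ := (Nat.dvd_prime_pow C.hr).1 hidvd
  have hiq : Nat.Coprime i q := by
    rw [hj]
    exact Nat.Coprime.pow_left _ ((Nat.coprime_primes C.hr C.hq).2 C.hqr.symm)
  have h3 : i ∣ r ^ e := hiq.dvd_of_dvd_mul_left hdvd
  have h4 := Nat.le_of_dvd (pow_pos C.hr.pos e) h3
  omega

/-- The special case does not occur. -/
theorem false' : False := by
  haveI : Fact q.Prime := ⟨C.hq⟩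
  haveI : Fact r.Prime := ⟨C.hr⟩
  obtain ⟨Q⟩ : Nonempty (Sylow q G) := inferInstance
  obtain ⟨u, y, P, hup⟩ := C.exists_pair Q
  exact C.false_of_pair P (C.m_eq_q P hup)

end S2Ctx

end Cfsg.Agent.Lib.Nilpotent.OneMMN
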