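import Mathlib
import Cfsg.Agent.Lib.Nilpotent.OneMMN.PartC2

/-!
# The main case: an abelian centralizer of an element of size `m = p ^ a`
-/

set_option autoImplicit false

namespace Cfsg.Agent.Lib.Nilpotent.OneMMN

open Subgroup Cfsg.Agent.Lib.ClassSize.Basic Cfsg.Agent.Lib.ClassSize.Coprime
open scoped Pointwise

universe u

variable {G : Type u} [Group G] [Finite G]

/-- The main case. -/
structure S1Ctx {m n : ℕ} (H : Hyp G m n) (p a : ℕ) (y₀ : G) : Prop where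
  hp : p.Prime
  hma : m = p ^ a
  hy₀ : cs y₀ = m
  hT : ∀ x ∈ cent y₀, ∀ z ∈ cent y₀, x * z = z * x

/-- An element with both `p`-power and `r`-power order is trivial. -/
theorem eq_one_of_el_el {p r : ℕ} (hp : p.Prime) (hr : r.Prime) (hpr : p ≠ r) {x : G} (h1 : El p x)
    (h2 : El r x) : x = 1 := by
  have h3 := El.coprime hp hr hpr h1 h2
  rw [Nat.coprime_self] at h3
  exact orderOf_eq_one_iff.1 h3

/-- Splitting an abelian subgroup in `p`- and `p'`-parts. -/
theorem card_tors_mul {p : ℕ} (hp : p.Prime) (B : Subgroup G) (hB : ∀ a ∈ B, ∀ b ∈ B, a * b = b * a) :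
    Nat.card (tors B hB (ordProj[p] (Nat.card G))) * Nat.card (tors B hB (ordCompl[p] (Nat.card G))) =
      Nat.card B := by
  classical
  haveI : Fact p.Prime := ⟨hp⟩
  set A₁ := tors B hB (ordProj[p] (Nat.card G)) with hA₁
  set N₁ := tors B hB (ordCompl[p] (Nat.card G)) with hN₁
  have h1 := Cfsg.Agent.Lib.Basic.ProductCard.ncard_mul_mul_card_inf A₁ N₁
  have h2 : ((A₁ : Set G) * (N₁ : Set G)) = (B : Set G) := by
    ext x
    constructor
    · rintro ⟨s, hs, t, ht, rfl⟩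
      exact B.mul_mem hs.1 ht.1
    · intro hx
      obtain ⟨s, t, hst, hs, ht, hsE, htc⟩ := exists_parts' x p
      have hzle : zpowers x ≤ B := zpowers_le.2 hx
      refine ⟨s, ⟨hzle hs, (pow_ordProj_eq_one_iff hp).2 hsE⟩, t,
        ⟨hzle ht, (pow_ordCompl_eq_one_iff hp).2 htc⟩, hst.symm⟩
  have h3 : (A₁ ⊓ N₁ : Subgroup G) = ⊥ := by
    rw [eq_bot_iff]
    rintro x ⟨hx1, hx2⟩
    have h4 := (pow_ordProj_eq_one_iff hp).1 hx1.2
    have h5 := (pow_ordCompl_eq_one_iff hp).1 hx2.2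
    obtain ⟨e, he⟩ := h4
    rw [he] at h5
    have h6 : e = 0 := by
      by_contra h
      have h7 : p ∣ p ^ e := dvd_pow_self p h
      have h8 := Nat.Coprime.eq_one_of_dvd h5.symm h7
      exact hp.one_lt.ne' h8
    rw [h6, pow_zero] at he
    exact (Subgroup.mem_bot).2 (orderOf_eq_one_iff.1 he)
  rw [h2, h3] at h1
  have h4 : (B : Set G).ncard = Nat.card B := (Nat.card_coe_set_eq _).symm
  rw [h4, Subgroup.card_bot, mul_one] at h1
  exact h1.symm

namespace S1Ctx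

variable {m n p a : ℕ} {H : Hyp G m n} {y₀ : G} (C : S1Ctx H p a y₀)
include C

theorem ha0 : a ≠ 0 := by
  rintro rfl
  have := H.hm
  rw [C.hma] at this
  simp at this

theorem hpm : p ∣ m := C.hma ▸ dvd_pow_self p C.ha0

theorem ordProj_m : ordProj[p] m = m := by
  rw [C.hma, Nat.factorization_pow, Nat.Prime.factorization C.hp]
  simp

/-- Centralizers of noncentral elements of `T`. -/
theorem cent_eq {t : G} (ht : t ∈ cent y₀) (htZ : t ∉ center G) : cent t = cent y₀ :=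
  (H.cent_eq_of_le C.hy₀ htZ fun w hw => mem_cent_iff.2 (C.hT t ht w hw)).symm

theorem cs_eq {t : G} (ht : t ∈ cent y₀) (htZ : t ∉ center G) : cs t = m := by
  show (cent t).index = m
  rw [C.cent_eq ht htZ]
  exact C.hy₀

theorem center_le_T : center G ≤ cent y₀ := center_le_cent y₀

/-- Elements for a prime `r ∣ n`. -/
theorem exists_r {r : ℕ} (hr : r.Prime) (hrn : r ∣ n) {x : G} (hx : cs x = m) :
    ∃ R : Subgroup G, R ≤ cent x ∧ IsPGroup r R ∧ Nat.card R = ordProj[r] (Nat.card G) ∧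
      ∃ z ∈ R, z ∉ center G := by
  haveI : Fact r.Prime := ⟨hr⟩
  obtain ⟨P, -, hP⟩ := exists_sylow_of_le (p := r) (K := cent x) (T := ⊥) (by
    show ¬ r ∣ cs x
    rw [hx]
    exact H.not_dvd_m hr hrn) bot_le IsPGroup.of_bot
  obtain ⟨z, hz, hzZ⟩ := H.noncentral_of_sylow hrn P
  exact ⟨P, hP, P.2, card_sylow P, z, hz, hzZ⟩

/-- A `p`-element of size `m` lies in all Sylow `p`-subgroups. -/
theorem mem_all_sylow [Fact p.Prime] {b : G} (hbE : El p b) (hb : cs b = m) (P : Sylow p G) :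
    b ∈ (P : Subgroup G) := by
  obtain ⟨P₀, hP₀⟩ := hbE.isPGroup.exists_le_sylow
  have hbP₀ : b ∈ (P₀ : Subgroup G) := hP₀ (mem_zpowers b)
  obtain ⟨x, hx⟩ := exists_conjS_eq P₀ P
  have hc : Nat.Coprime (P₀ : Subgroup G).index (cent b).index := by
    show Nat.Coprime _ (cs b)
    rw [hb, C.hma]
    exact Nat.Coprime.pow_right _ ((Nat.Prime.coprime_iff_not_dvd C.hp).2 P₀.not_dvd_index).symm
  obtain ⟨c, hc1, d, hd, hcd⟩ := exists_mul_of_coprime hc x⁻¹
  rw [← hx, mem_conjS]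
  have h1 : d * b = b * d := (mem_cent_iff.1 hd).symm
  have h2 : x⁻¹ * b * x = c * b * c⁻¹ := by
    have h3 : x = (c * d)⁻¹ := by rw [← hcd]; group
    rw [hcd, h3]
    calc c * d * b * (c * d)⁻¹ = c * (d * b) * d⁻¹ * c⁻¹ := by group
      _ = c * (b * d) * d⁻¹ * c⁻¹ := by rw [h1]
      _ = c * b * c⁻¹ := by group
  rw [h2]
  exact (P₀ : Subgroup G).mul_mem ((P₀ : Subgroup G).mul_mem hc1 hbP₀) ((P₀ : Subgroup G).inv_mem hc1)

/-- The `p`-part of `T`. -/
noncomputable abbrev At (_C : S1Ctx H p a y₀) : Subgroup G := tors (cent y₀) _C.hT (ordProj[p] (Nat.card G))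

/-- The `p'`-part of `T`. -/
noncomputable abbrev Nt (_C : S1Ctx H p a y₀) : Subgroup G := tors (cent y₀) _C.hT (ordCompl[p] (Nat.card G))

theorem At_isPGroup : IsPGroup p C.At := isPGroup_tors C.hp

theorem At_el {c : G} (hc : c ∈ C.At) : El p c := (pow_ordProj_eq_one_iff C.hp).1 hc.2

theorem mem_At {c : G} (hc : c ∈ cent y₀) (hcE : El p c) : c ∈ C.At :=
  ⟨hc, (pow_ordProj_eq_one_iff C.hp).2 hcE⟩

theorem exists_A_noncentral : ∃ c ∈ C.At, c ∉ center G := by
  haveI : Fact p.Prime := ⟨C.hp⟩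
  obtain ⟨c, hc, hcE, hcZ⟩ := H.exists_el_mem_of_index C.hpm (K := cent y₀) (Or.inl C.hy₀)
  exact ⟨c, C.mem_At hc hcE, hcZ⟩

/-- `A ≤ O_p(G)`. -/
theorem At_le_pCore [Fact p.Prime] : C.At ≤ Cfsg.pCore p G := by
  intro c hc
  rw [Cfsg.Agent.Lib.Basic.PCore.mem_pCore_iff]
  intro P
  by_cases hcZ : c ∈ center G
  · refine mem_sylow_of_commute P (C.At_el hc) fun d _ => ?_
    exact (Subgroup.mem_center_iff.1 hcZ d).symm
  · exact C.mem_all_sylow (C.At_el hc) (C.cs_eq hc.1 hcZ) P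

/-- The conjugates of `T` under elements moving a noncentral element of `T` into `T`. -/
theorem conjS_T_eq {c b : G} (hb : b ∈ cent y₀) (hbZ : b ∉ center G) (hcb : c * b * c⁻¹ ∈ cent y₀) :
    conjS c (cent y₀) = cent y₀ := by
  have h1 : c * b * c⁻¹ ∉ center G := by
    intro h
    apply hbZ
    have h2 := (inferInstance : (center G).Normal).conj_mem _ h c⁻¹
    have h3 : c⁻¹ * (c * b * c⁻¹) * c⁻¹⁻¹ = b := by group
    rwa [h3] at h2
  have h2 := C.cent_eq hcb h1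
  rw [cent_conj, C.cent_eq hb hbZ] at h2
  exact h2

/-- A `p`-element normalizing `T` lies in `T`. -/
theorem mem_T_of_normalizes [Fact p.Prime] {c : G} (hcO : c ∈ Cfsg.pCore p G)
    (hcT : conjS c (cent y₀) = cent y₀) : c ∈ cent y₀ := by
  haveI hOn : (Cfsg.pCore p G).Normal := Cfsg.Agent.Lib.Basic.PCore.pCore_normal p G
  have hOp : IsPGroup p (Cfsg.pCore p G) := Cfsg.Agent.Lib.Basic.PCore.pCore_isPGroup p
  set r := n.minFac with hrdef
  have hn1 : n ≠ 1 := by have := H.hn; omega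
  have hr : r.Prime := Nat.minFac_prime hn1
  have hrn : r ∣ n := Nat.minFac_dvd n
  have hpr : p ≠ r := by
    rintro h
    exact H.not_dvd_m hr hrn (h ▸ C.hpm)
  obtain ⟨R, hRT, hRp, -, z, hzR, hzZ⟩ := C.exists_r hr hrn C.hy₀
  haveI : Fact r.Prime := ⟨hr⟩
  have hzT : z ∈ cent y₀ := hRT hzR
  have hzE : El r z := El.of_mem hRp hzR
  have hczT : c * z * c⁻¹ ∈ cent y₀ := by
    have : c * z * c⁻¹ ∈ conjS c (cent y₀) := conj_mem_conjS hzT
    rwa [hcT] at this
  -- the commutator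
  set w := (c * z * c⁻¹) * z⁻¹ with hw
  have hwr : El r w := by
    have h1 : (c * z * c⁻¹) ^ ordProj[r] (Nat.card G) = 1 :=
      (pow_ordProj_eq_one_iff hr).2 (hzE.conj c)
    have h2 : (z⁻¹) ^ ordProj[r] (Nat.card G) = 1 := by
      rw [inv_pow, (pow_ordProj_eq_one_iff hr).2 hzE, inv_one]
    have hcomm : Commute (c * z * c⁻¹) z⁻¹ := (show Commute (c * z * c⁻¹) z from C.hT _ hczT _ hzT).inv_right
    refine (pow_ordProj_eq_one_iff hr).1 ?_
    rw [hw, hcomm.mul_pow, h1, h2, mul_one]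
  have hwp : El p w := by
    have h1 : w = c * (z * c⁻¹ * z⁻¹) := by rw [hw]; group
    have h2 : z * c⁻¹ * z⁻¹ ∈ Cfsg.pCore p G := hOn.conj_mem _ ((Cfsg.pCore p G).inv_mem hcO) z
    exact El.of_mem hOp (h1 ▸ (Cfsg.pCore p G).mul_mem hcO h2)
  have hw1 : w = 1 := eq_one_of_el_el C.hp hr hpr hwp hwr
  have h3 : c * z * c⁻¹ = z := mul_inv_eq_one.1 hw1
  have h4 : c ∈ cent z := mem_cent_iff.2 (by
    calc z * c = (c * z * c⁻¹) * c := by rw [h3]
      _ = c * z := by group)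
  rwa [C.cent_eq hzT hzZ] at h4

/-- `O_p(G) ≤ T`. -/
theorem pCore_le_T [Fact p.Prime] : Cfsg.pCore p G ≤ cent y₀ := by
  classical
  have hOp : IsPGroup p (Cfsg.pCore p G) := Cfsg.Agent.Lib.Basic.PCore.pCore_isPGroup p
  haveI : Group.IsNilpotent (Cfsg.pCore p G) := hOp.isNilpotent
  have hAO := C.At_le_pCore
  set A' : Subgroup (Cfsg.pCore p G) := C.At.subgroupOf (Cfsg.pCore p G) with hA'
  by_cases htop : A' = ⊤
  · intro x hx
    have h1 : (⟨x, hx⟩ : Cfsg.pCore p G) ∈ A' := by rw [htop]; trivial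
    rw [hA', Subgroup.mem_subgroupOf] at h1
    exact h1.1
  exfalso
  have hlt : A' < ⊤ := lt_top_iff_ne_top.2 htop
  have h1 := Group.normalizerCondition_of_isNilpotent A' hlt
  obtain ⟨c, hcN, hcA⟩ := SetLike.exists_of_lt h1
  obtain ⟨b, hbA, hbZ⟩ := C.exists_A_noncentral
  have hcb : (c : G) * b * (c : G)⁻¹ ∈ C.At := by
    have h2 : (⟨b, hAO hbA⟩ : Cfsg.pCore p G) ∈ A' := by
      rw [hA', Subgroup.mem_subgroupOf]
      exact hbA
    have h3 := (Subgroup.mem_normalizer_iff.1 hcN _).1 h2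
    rw [hA', Subgroup.mem_subgroupOf] at h3
    exact h3
  have hcT := C.conjS_T_eq hbA.1 hbZ hcb.1
  have hcmem := C.mem_T_of_normalizes c.2 hcT
  apply hcA
  rw [hA', Subgroup.mem_subgroupOf]
  exact C.mem_At hcmem (El.of_mem hOp c.2)

/-- `T` is normal. -/
theorem T_normal [Fact p.Prime] : (cent y₀).Normal := by
  haveI hOn : (Cfsg.pCore p G).Normal := Cfsg.Agent.Lib.Basic.PCore.pCore_normal p G
  obtain ⟨b, hbA, hbZ⟩ := C.exists_A_noncentral
  refine ⟨fun t ht g => ?_⟩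
  have h1 : g * b * g⁻¹ ∈ cent y₀ := C.pCore_le_T (hOn.conj_mem b (C.At_le_pCore hbA) g)
  have h2 := C.conjS_T_eq hbA.1 hbZ h1
  have h3 : g * t * g⁻¹ ∈ conjS g (cent y₀) := conj_mem_conjS ht
  rwa [h2] at h3

/-- Elements of size `m` lie in `T`. -/
theorem mem_T_of_cs_m [Fact p.Prime] {x : G} (hx : cs x = m) : x ∈ cent y₀ := by
  haveI hTn := C.T_normal
  set r := n.minFac with hrdef
  have hn1 : n ≠ 1 := by have := H.hn; omega
  have hr : r.Prime := Nat.minFac_prime hn1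
  have hrn : r ∣ n := Nat.minFac_dvd n
  haveI : Fact r.Prime := ⟨hr⟩
  have hrT : ¬ r ∣ (cent y₀).index := by
    show ¬ r ∣ cs y₀
    rw [C.hy₀]
    exact H.not_dvd_m hr hrn
  have hrx : ¬ r ∣ (cent x).index := by
    show ¬ r ∣ cs x
    rw [hx]
    exact H.not_dvd_m hr hrn
  obtain ⟨R₁, -, hR₁⟩ := exists_sylow_of_le (p := r) (K := cent y₀) (T := ⊥) hrT bot_le IsPGroup.of_bot
  obtain ⟨R₂, -, hR₂⟩ := exists_sylow_of_le (p := r) (K := cent x) (T := ⊥) hrx bot_le IsPGroup.of_bot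
  obtain ⟨g, hg⟩ := exists_conjS_eq R₁ R₂
  obtain ⟨z, hz, hzZ⟩ := H.noncentral_of_sylow hrn R₂
  have hzT : z ∈ cent y₀ := by
    rw [← hg, mem_conjS] at hz
    have h1 := hTn.conj_mem _ (hR₁ hz) g
    have h2 : g * (g⁻¹ * z * g) * g⁻¹ = z := by group
    rwa [h2] at h1
  have h3 := C.cent_eq hzT hzZ
  have h4 : x ∈ cent z := mem_cent_comm.1 (hR₂ hz)
  rwa [h3] at h4

/-- The set of the small elements. -/
theorem T_set [Fact p.Prime] :
    ((cent y₀ : Subgroup G) : Set G) =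
      {x : G | (centralizer ({x} : Set G)).index = 1 ∨ (centralizer ({x} : Set G)).index = m} := by
  ext x
  constructor
  · intro hx
    by_cases hxZ : x ∈ center G
    · exact Or.inl (index_cent_eq_one_iff.2 hxZ)
    · exact Or.inr (C.cs_eq hx hxZ)
  · rintro (h | h)
    · exact center_le_cent y₀ (index_cent_eq_one_iff.1 h)
    · exact C.mem_T_of_cs_m h

/-- The intersection with a Sylow subgroup. -/
theorem inf_sylow [Fact p.Prime] (P : Sylow p G) : (P : Subgroup G) ⊓ cent y₀ = C.At := by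
  apply le_antisymm
  · rintro c ⟨hcP, hcT⟩
    exact C.mem_At hcT (El.of_mem P.2 hcP)
  · intro c hc
    exact ⟨Cfsg.Agent.Lib.Basic.PCore.pCore_le_sylow P (C.At_le_pCore hc), hc.1⟩

theorem card_At [Fact p.Prime] (P : Sylow p G) : Nat.card C.At * m = Nat.card P := by
  have hc : Nat.Coprime (P : Subgroup G).index (cent y₀).index := by
    show Nat.Coprime _ (cs y₀)
    rw [C.hy₀, C.hma]
    exact Nat.Coprime.pow_right _ ((Nat.Prime.coprime_iff_not_dvd C.hp).2 P.not_dvd_index).symm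
  have h1 := index_inf_of_coprime hc
  have h2 := ((P : Subgroup G) ⊓ cent y₀).card_mul_index
  have h3 := (P : Subgroup G).card_mul_index
  rw [h1, C.inf_sylow P] at h2
  have h4 : (cent y₀).index = m := C.hy₀
  rw [h4] at h2
  have hpos : 0 < (P : Subgroup G).index := Nat.pos_of_ne_zero Subgroup.index_ne_zero_of_finite
  have h5 : (Nat.card C.At * m) * (P : Subgroup G).index = Nat.card P * (P : Subgroup G).index := by
    rw [h3, ← h2]
    ring
  exact Nat.eq_of_mul_eq_mul_right hpos h5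

/-- Noncentral elements of the `p'`-part. -/
theorem Nt_not_le [Fact p.Prime] : ¬ C.Nt ≤ center G := by
  set r := n.minFac with hrdef
  have hn1 : n ≠ 1 := by have := H.hn; omega
  have hr : r.Prime := Nat.minFac_prime hn1
  have hrn : r ∣ n := Nat.minFac_dvd n
  have hpr : p ≠ r := fun h => H.not_dvd_m hr hrn (h ▸ C.hpm)
  obtain ⟨R, hRT, hRp, -, z, hzR, hzZ⟩ := C.exists_r hr hrn C.hy₀
  haveI : Fact r.Prime := ⟨hr⟩
  intro h
  apply hzZ
  apply h
  refine ⟨hRT hzR, (pow_ordCompl_eq_one_iff C.hp).2 ?_⟩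
  obtain ⟨e, he⟩ := El.of_mem hRp hzR
  rw [he]
  exact Nat.Coprime.pow_left _ ((Nat.coprime_primes hr C.hp).2 hpr.symm)

/-- `m` is the prime `p`. -/
theorem m_eq_p [Fact p.Prime] : m = p := by
  obtain ⟨P⟩ : Nonempty (Sylow p G) := inferInstance
  haveI hTn := C.T_normal
  have hAP : C.At ≤ (P : Subgroup G) := by
    rw [← C.inf_sylow P]
    exact inf_le_left
  have hnorm : ∀ c ∈ (P : Subgroup G), ∀ x ∈ C.At, c * x * c⁻¹ ∈ C.At := fun c _ x hx =>
    conj_mem_tors (fun b hb => hTn.conj_mem b hb c) hx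
  have hAZ : ¬ C.At ≤ center G := by
    obtain ⟨b, hbA, hbZ⟩ := C.exists_A_noncentral
    exact fun h => hbZ (h hbA)
  obtain ⟨u₀, hu₀A, hu₀Z, hu₀cen, hu₀p⟩ := exists_central_elt P.2 hAP hnorm hAZ
  have hcent : cent u₀ = cent y₀ := C.cent_eq hu₀A.1 hu₀Z
  have hmemA : ∀ c ∈ (P : Subgroup G), c ∈ cent u₀ → c ∈ C.At := by
    intro c hc hcu
    rw [← C.inf_sylow P]
    rw [hcent] at hcu
    exact ⟨hc, hcu⟩
  have hle : C.At.relIndex (P : Subgroup G) ≤ p := by
    refine relIndex_le_of_fpf (q := p) (Q := (P : Subgroup G)) (Q₁ := C.At) (W := C.Nt) hAP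
      (fun x hx z hz => C.hT x hx.1 z hz.1) (fun c _ w hw => conj_mem_tors
        (fun b hb => hTn.conj_mem b hb c) hw) C.Nt_not_le (coprime_card_tors C.hp) ?_ ?_ ?_ ?_
    · intro c hc w hw
      rw [C.hT c hc.1 w hw.1]
      group
    · intro c hc w hw hwZ hfix
      refine hmemA c hc ?_
      rw [hcent, ← C.cent_eq hw.1 hwZ]
      exact mem_cent_iff.2 (by
        calc w * c = (c * w * c⁻¹) * c := by rw [hfix]
          _ = c * w := by group)
    · intro c hc
      exact hmemA _ ((P : Subgroup G).pow_mem hc _) (pow_mem_of_central (hu₀cen c hc) hu₀p)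
    · intro c hc d hd
      exact hmemA _ ((P : Subgroup G).mul_mem ((P : Subgroup G).inv_mem ((P : Subgroup G).mul_mem hd hc))
        ((P : Subgroup G).mul_mem hc hd)) (comm_mem_of_central (hu₀cen c hc) (hu₀cen d hd))
  have h1 := card_mul_relIndex hAP
  have h2 := C.card_At P
  have h3 : C.At.relIndex (P : Subgroup G) = m := Nat.eq_of_mul_eq_mul_left Nat.card_pos (h1.trans h2.symm)
  rw [h3] at hle
  have h4 : p ≤ m := by
    rw [C.hma]
    exact Nat.le_self_pow C.ha0 p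
  omega

end S1Ctx

end Cfsg.Agent.Lib.Nilpotent.OneMMN
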