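import Mathlib
import Cfsg.Agent.Lib.Nilpotent.OneMMN.PartD1

/-!
# The main case, concluded
-/

set_option autoImplicit false

namespace Cfsg.Agent.Lib.Nilpotent.OneMMN

open Subgroup Cfsg.Agent.Lib.ClassSize.Basic Cfsg.Agent.Lib.ClassSize.Coprime
open scoped Pointwise commutatorElement

universe u

variable {G : Type u} [Group G] [Finite G]

namespace S1Ctx

variable {m n p a : ℕ} {H : Hyp G m n} {y₀ : G} (C : S1Ctx H p a y₀)
include C

variable [hpF : Fact p.Prime]

theorem exists_g (P : Sylow p G) : ∃ g ∈ (P : Subgroup G), g ∉ C.At := by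
  by_contra hno
  push Not at hno
  have h1 : (P : Subgroup G) ≤ C.At := hno
  have h2 := Nat.le_of_dvd Nat.card_pos (Subgroup.card_dvd_of_le h1)
  have h3 : 0 < Nat.card C.At := Nat.card_pos
  have h4 := H.hm
  have h5 : Nat.card (P : Subgroup G) = Nat.card P := rfl
  rw [h5, ← C.card_At P] at h2
  nlinarith

theorem g_notMem_T {P : Sylow p G} {g : G} (hgP : g ∈ (P : Subgroup G)) (hgA : g ∉ C.At) :
    g ∉ cent y₀ := fun h => hgA (by rw [← C.inf_sylow P]; exact ⟨hgP, h⟩)

/-- Fixed points of `g` on `T` are central. -/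
theorem fix_central {g : G} (hgT : g ∉ cent y₀) {t : G} (ht : t ∈ cent y₀) (htg : t ∈ cent g) :
    t ∈ center G := by
  by_contra htZ
  have h1 := C.cent_eq ht htZ
  apply hgT
  rw [← h1]
  exact mem_cent_comm.1 htg

/-- `|T| = |Z| p n`. -/
theorem card_T (hmp : m = p) {g : G} (hgT : g ∉ cent y₀) :
    Nat.card (cent y₀) = Nat.card (center G) * (p * n) := by
  haveI hTn := C.T_normal
  have hgZ : g ∉ center G := fun h => hgT (center_le_cent y₀ h)
  have hcsg : cs g = m * n := (H.cs_noncentral hgZ).resolve_left fun h => hgT (C.mem_T_of_cs_m h)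
  have h1 : (cent y₀).relIndex (cent g) ∣ (cent y₀).index := Subgroup.relIndex_dvd_index_of_normal _ _
  have hTi : (cent y₀).index = p := by
    show cs y₀ = p
    rw [C.hy₀, hmp]
  rw [hTi] at h1
  have h2 : (cent y₀).relIndex (cent g) = p := by
    rcases (Nat.dvd_prime C.hp).1 h1 with h | h
    · exfalso
      have h3 : cent g ≤ cent y₀ := Subgroup.relIndex_eq_one.1 h
      exact hgT (h3 (mem_cent_self g))
    · exact h
  have h3 : cent y₀ ⊓ cent g = center G := by
    apply le_antisymm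
    · rintro t ⟨ht, htg⟩
      exact C.fix_central hgT ht htg
    · intro t ht
      exact ⟨center_le_cent y₀ ht, center_le_cent g ht⟩
  have h4 : (cent y₀ ⊓ cent g).relIndex (cent g) = (cent y₀).relIndex (cent g) :=
    Subgroup.inf_relIndex_right _ _
  have h5 := card_mul_relIndex (inf_le_right : cent y₀ ⊓ cent g ≤ cent g)
  rw [h4, h2, h3] at h5
  have h6 := (cent g).card_mul_index
  have h7 : (cent g).index = p * n := by
    show cs g = p * n
    rw [hcsg, hmp]
  have h8 := (cent y₀).card_mul_index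
  rw [h6.symm, h7, ← h5, hTi] at h8
  have hp0 : 0 < p := C.hp.pos
  have h9 : Nat.card (center G) * (p * n) * p = Nat.card (cent y₀) * p := by
    rw [h8]
    ring
  exact (Nat.eq_of_mul_eq_mul_right hp0 h9).symm

/-- The relative indices of the central parts. -/
theorem relIndex_parts (hmp : m = p) {g : G} (hgT : g ∉ cent y₀) :
    (C.At ⊓ center G).relIndex C.At = p ∧ (C.Nt ⊓ center G).relIndex C.Nt = n := by
  have hZab : ∀ a ∈ center G, ∀ b ∈ center G, a * b = b * a := fun a ha b _ =>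
    (Subgroup.mem_center_iff.1 ha b).symm
  have hZ1 : tors (center G) hZab (ordProj[p] (Nat.card G)) = C.At ⊓ center G := by
    ext x
    constructor
    · rintro ⟨hx, hxp⟩
      exact ⟨⟨center_le_cent y₀ hx, hxp⟩, hx⟩
    · rintro ⟨⟨-, hxp⟩, hx⟩
      exact ⟨hx, hxp⟩
  have hZ2 : tors (center G) hZab (ordCompl[p] (Nat.card G)) = C.Nt ⊓ center G := by
    ext x
    constructor
    · rintro ⟨hx, hxp⟩
      exact ⟨⟨center_le_cent y₀ hx, hxp⟩, hx⟩
    · rintro ⟨⟨-, hxp⟩, hx⟩
      exact ⟨hx, hxp⟩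
  have e1 := card_tors_mul C.hp (center G) hZab
  rw [hZ1, hZ2] at e1
  have e2 := card_tors_mul C.hp (cent y₀) C.hT
  have e3 := card_mul_relIndex (inf_le_left : C.At ⊓ center G ≤ C.At)
  have e4 := card_mul_relIndex (inf_le_left : C.Nt ⊓ center G ≤ C.Nt)
  set α := (C.At ⊓ center G).relIndex C.At with hα
  set β := (C.Nt ⊓ center G).relIndex C.Nt with hβ
  have e5 : α * β = p * n := by
    have h1 := C.card_T hmp hgT
    rw [← e2, ← e1, ← e3, ← e4] at h1
    have hpos : 0 < Nat.card (C.At ⊓ center G : Subgroup G) * Nat.card (C.Nt ⊓ center G : Subgroup G) :=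
      Nat.mul_pos Nat.card_pos Nat.card_pos
    have h2 : (Nat.card (C.At ⊓ center G : Subgroup G) * Nat.card (C.Nt ⊓ center G : Subgroup G)) * (α * β) =
        (Nat.card (C.At ⊓ center G : Subgroup G) * Nat.card (C.Nt ⊓ center G : Subgroup G)) * (p * n) := by
      rw [← h1]
      ring
    exact Nat.eq_of_mul_eq_mul_left hpos h2
  have hpn : Nat.Coprime p n := by
    have := H.cop
    rwa [hmp] at this
  have hαp : ∃ j, α = p ^ j := by
    obtain ⟨k, hk⟩ := IsPGroup.iff_card.1 C.At_isPGroup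
    have h1 : α ∣ p ^ k := by
      rw [← hk, ← e3]
      exact Dvd.intro_left _ rfl
    obtain ⟨j, -, hj⟩ := (Nat.dvd_prime_pow C.hp).1 h1
    exact ⟨j, hj⟩
  obtain ⟨j, hj⟩ := hαp
  have hαd : α ∣ p := by
    have h1 : α ∣ p * n := Dvd.intro _ e5
    have h2 : Nat.Coprime α n := by
      rw [hj]
      exact Nat.Coprime.pow_left _ hpn
    exact h2.dvd_of_dvd_mul_right h1
  have hβc : Nat.Coprime β p := by
    have h1 : β ∣ Nat.card C.Nt := by
      rw [← e4]
      exact Dvd.intro_left _ rfl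
    exact Nat.Coprime.coprime_dvd_left h1 (coprime_card_tors C.hp)
  have hβd : β ∣ n := by
    have h1 : β ∣ p * n := Dvd.intro_left _ e5
    exact hβc.dvd_of_dvd_mul_left h1
  have hn0 : 0 < n := by have := H.hn; omega
  rcases (Nat.dvd_prime C.hp).1 hαd with h | h
  · exfalso
    rw [h, one_mul] at e5
    have h1 := Nat.le_of_dvd hn0 hβd
    have h2 := C.hp.one_lt
    nlinarith
  · refine ⟨h, ?_⟩
    rw [h] at e5
    exact Nat.eq_of_mul_eq_mul_left C.hp.pos e5

/-- `p ∣ n - 1`. -/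
theorem dvd_sub_one (hmp : m = p) : p ∣ n - 1 := by
  obtain ⟨P⟩ : Nonempty (Sylow p G) := inferInstance
  haveI hTn := C.T_normal
  obtain ⟨g, hgP, hgA⟩ := C.exists_g P
  have hgT := C.g_notMem_T hgP hgA
  have hgE : El p g := El.of_mem P.2 hgP
  have hb := (C.relIndex_parts hmp hgT).2
  have hmod : Nat.card C.Nt ≡ Nat.card (C.Nt ⊓ center G : Subgroup G) [MOD p] := by
    refine card_modEq_of_fix (Q := zpowers g) (W := C.Nt) (W₀ := C.Nt ⊓ center G) hgE.isPGroup
      (fun c _ w hw => conj_mem_tors (fun b hb => hTn.conj_mem b hb c) hw) inf_le_left ?_ ?_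
    · intro c _ z hz
      rw [Subgroup.mem_center_iff.1 hz.2 c]
      group
    · intro w hw hfw
      refine ⟨hw, C.fix_central hgT hw.1 ?_⟩
      have h1 := hfw g (mem_zpowers g)
      exact mem_cent_iff.2 (by
        calc g * w = (g * w * g⁻¹) * g := by group
          _ = w * g := by rw [h1])
  have h1 := card_mul_relIndex (inf_le_left : C.Nt ⊓ center G ≤ C.Nt)
  rw [hb] at h1
  rw [← h1] at hmod
  have hcop : Nat.Coprime (Nat.card (C.Nt ⊓ center G : Subgroup G)) p :=
    Nat.Coprime.coprime_dvd_left (Subgroup.card_dvd_of_le inf_le_left) (coprime_card_tors C.hp)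
  have h2 : Nat.card (C.Nt ⊓ center G : Subgroup G) * n ≡ Nat.card (C.Nt ⊓ center G : Subgroup G) * 1 [MOD p] := by
    rwa [mul_one]
  have h3 : n ≡ 1 [MOD p] := Nat.ModEq.cancel_left_of_coprime (by rw [Nat.gcd_comm]; exact hcop) h2
  have hn0 : 0 < n := by have := H.hn; omega
  exact (Nat.modEq_iff_dvd' hn0).1 h3.symm

/-- The commutator subgroup of a Sylow subgroup. -/
theorem card_commutator (hmp : m = p) (P : Sylow p G) :
    Nat.card (commutator (P : Subgroup G)) = p := by
  classical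
  haveI hTn := C.T_normal
  obtain ⟨g, hgP, hgA⟩ := C.exists_g P
  have hgT := C.g_notMem_T hgP hgA
  have hAP : C.At ≤ (P : Subgroup G) := by
    rw [← C.inf_sylow P]
    exact inf_le_left
  have hnorm : ∀ c ∈ (P : Subgroup G), ∀ x ∈ C.At, c * x * c⁻¹ ∈ C.At := fun c _ x hx =>
    conj_mem_tors (fun b hb => hTn.conj_mem b hb c) hx
  have hAZ : ¬ C.At ≤ center G := by
    obtain ⟨b, hbA, hbZ⟩ := C.exists_A_noncentral
    exact fun h => hbZ (h hbA)
  obtain ⟨a₀, ha₀A, ha₀Z, -, ha₀p⟩ := exists_central_elt P.2 hAP hnorm hAZ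
  set Z₀ : Subgroup G := (P : Subgroup G) ⊓ center G with hZ₀
  have hZ₀eq : Z₀ = C.At ⊓ center G := by
    apply le_antisymm
    · rintro c ⟨hcP, hcZ⟩
      refine ⟨?_, hcZ⟩
      rw [← C.inf_sylow P]
      exact ⟨hcP, center_le_cent y₀ hcZ⟩
    · rintro c ⟨hcA, hcZ⟩
      exact ⟨hAP hcA, hcZ⟩
  have hcardA : Nat.card C.At = p * Nat.card Z₀ := by
    have h1 := card_mul_relIndex (inf_le_left : C.At ⊓ center G ≤ C.At)
    rw [(C.relIndex_parts hmp hgT).1, ← hZ₀eq] at h1
    rw [← h1, mul_comm]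
  have hcardP : Nat.card (P : Subgroup G) = p * Nat.card C.At := by
    have h1 := (congrArg (fun t => Nat.card C.At * t) hmp.symm).trans (C.card_At P)
    rw [show Nat.card (P : Subgroup G) = Nat.card P from rfl, ← h1, mul_comm]
  have hcomm : ∀ c ∈ (P : Subgroup G), ∀ d ∈ (P : Subgroup G), c * d * c⁻¹ * d⁻¹ ∈ center G := by
    apply comm_mod_center (q := p)
    rw [hcardP, hcardA]
    ring
  -- generators
  have hZ₀A : Z₀ ≤ C.At := by
    rw [hZ₀eq]
    exact inf_le_left
  have hgen : ∀ Y : Subgroup G, Y ≤ (P : Subgroup G) → a₀ ∈ Y → g ∈ Y → Z₀ ≤ Y → Y = (P : Subgroup G) := by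
    intro Y hYP ha₀Y hgY hZY
    have h1 : Y ⊓ C.At = C.At := by
      refine eq_of_between C.hp (Z₀ := Z₀) hcardA (le_inf hZY hZ₀A) inf_le_right ?_
      intro h
      exact ha₀Z (h ⟨ha₀Y, ha₀A⟩).2
    have hAY : C.At ≤ Y := by
      rw [← h1]
      exact inf_le_left
    refine eq_of_between C.hp (Z₀ := C.At) hcardP hAY hYP ?_
    intro h
    exact hgA (h hgY)
  let a' : (P : Subgroup G) := ⟨a₀, hAP ha₀A⟩
  let g' : (P : Subgroup G) := ⟨g, hgP⟩
  let w' : (P : Subgroup G) := ⁅a', g'⁆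
  have hwdef : (w' : G) = a₀ * g * a₀⁻¹ * g⁻¹ := rfl
  have hwZ : (w' : G) ∈ center G := by
    rw [hwdef]
    exact hcomm _ (hAP ha₀A) _ hgP
  have hw1 : (w' : G) ≠ 1 := by
    intro h
    rw [hwdef] at h
    apply hgT
    rw [← C.cent_eq ha₀A.1 ha₀Z]
    refine mem_cent_iff.2 ?_
    have h2 : a₀ * g * a₀⁻¹ = g := mul_inv_eq_one.1 h
    calc a₀ * g = (a₀ * g * a₀⁻¹) * a₀ := by group
      _ = g * a₀ := by rw [h2]
  have hwp : (w' : G) ^ p = 1 := by
    have h1 : a₀ * g * a₀⁻¹ = (w' : G) * g := by rw [hwdef]; group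
    have h2 := conj_pow_eq hwZ h1 p
    have h3 : a₀ ^ p * g * (a₀ ^ p)⁻¹ = g := by
      rw [Subgroup.mem_center_iff.1 ha₀p g |>.symm]
      group
    rw [h3] at h2
    have h4 : (w' : G) ^ p * g = 1 * g := by rw [one_mul]; exact h2.symm
    exact mul_right_cancel h4
  have hord : orderOf (w' : G) = p := orderOf_eq_prime hwp hw1
  -- the quotient
  let N : Subgroup (P : Subgroup G) := zpowers w'
  have hcenP : ∀ x : (P : Subgroup G), (x : G) ∈ center G → x ∈ center (P : Subgroup G) := fun x hx =>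
    Subgroup.mem_center_iff.2 fun y => Subtype.ext (Subgroup.mem_center_iff.1 hx y)
  have hNcen : N ≤ center (P : Subgroup G) := zpowers_le.2 (hcenP _ hwZ)
  haveI hNn : N.Normal := ⟨fun x hx y => by
    have h := Subgroup.mem_center_iff.1 (hNcen hx) y
    rw [h, mul_inv_cancel_right]
    exact hx⟩
  let π : (P : Subgroup G) →* (P : Subgroup G) ⧸ N := QuotientGroup.mk' N
  have hπs : Function.Surjective π := QuotientGroup.mk'_surjective N
  have hgen' : ∀ Y : Subgroup (P : Subgroup G), a' ∈ Y → g' ∈ Y →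
      (∀ z : (P : Subgroup G), (z : G) ∈ center G → z ∈ Y) → ∀ x, x ∈ Y := by
    intro Y h1 h2 h3 x
    have h4 := hgen (Y.map (P : Subgroup G).subtype) (by
      rintro _ ⟨t, -, rfl⟩
      exact t.2) ⟨a', h1, rfl⟩ ⟨g', h2, rfl⟩ (by
        rintro z ⟨hzP, hzZ⟩
        exact ⟨⟨z, hzP⟩, h3 _ hzZ, rfl⟩)
    have h5 : (x : G) ∈ Y.map (P : Subgroup G).subtype := by
      rw [h4]
      exact x.2
    obtain ⟨t, ht, hte⟩ := h5
    have : t = x := Subtype.ext hte
    rwa [← this]
  have hkey : π a' * π g' = π g' * π a' := by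
    have h1 : π w' = 1 := (QuotientGroup.eq_one_iff w').2 (mem_zpowers w')
    have h2 : π w' = π a' * π g' * (π a')⁻¹ * (π g')⁻¹ := by
      show π (a' * g' * a'⁻¹ * g'⁻¹) = _
      rw [map_mul, map_mul, map_mul, map_inv, map_inv]
    rw [h1] at h2
    have h3 := h2.symm
    have h4 := mul_inv_eq_one.1 h3
    exact mul_inv_eq_iff_eq_mul.1 h4
  have hzc : ∀ z : (P : Subgroup G), (z : G) ∈ center G → ∀ x, π x * π z = π z * π x := by
    intro z hz x
    rw [← map_mul, ← map_mul]
    exact congrArg π (Subgroup.mem_center_iff.1 (hcenP z hz) x)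
  have hY1 : ∀ x, π x * π a' = π a' * π x := by
    intro x
    let Y : Subgroup (P : Subgroup G) := (centralizer ({π a'} : Set _)).comap π
    have hmem : ∀ t, t ∈ Y ↔ π a' * π t = π t * π a' := by
      intro t
      rw [mem_comap, mem_centralizer_iff]
      simp
    have h1 : x ∈ Y := hgen' Y ((hmem _).2 rfl) ((hmem _).2 hkey)
      (fun z hz => (hmem _).2 (hzc z hz a')) x
    exact ((hmem _).1 h1).symm
  have hY2 : ∀ x, π x * π g' = π g' * π x := by
    intro x
    let Y : Subgroup (P : Subgroup G) := (centralizer ({π g'} : Set _)).comap π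
    have hmem : ∀ t, t ∈ Y ↔ π g' * π t = π t * π g' := by
      intro t
      rw [mem_comap, mem_centralizer_iff]
      simp
    have h1 : x ∈ Y := hgen' Y ((hmem _).2 hkey.symm) ((hmem _).2 rfl)
      (fun z hz => (hmem _).2 (hzc z hz g')) x
    exact ((hmem _).1 h1).symm
  have hY3 : ∀ x y, π x * π y = π y * π x := by
    intro x y
    let Y : Subgroup (P : Subgroup G) := (centralizer ({π y} : Set _)).comap π
    have hmem : ∀ t, t ∈ Y ↔ π y * π t = π t * π y := by
      intro t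
      rw [mem_comap, mem_centralizer_iff]
      simp
    have h1 : x ∈ Y := hgen' Y ((hmem _).2 (hY1 y)) ((hmem _).2 (hY2 y)) (fun z hz => (hmem _).2 (hzc z hz y)) x
    exact ((hmem _).1 h1).symm
  have hcommN : commutator (P : Subgroup G) = N := by
    apply le_antisymm
    · rw [_root_.commutator_def, Subgroup.commutator_le]
      intro x _ y _
      have h1 : π ⁅x, y⁆ = 1 := by
        rw [commutatorElement_def, map_mul, map_mul, map_mul, map_inv, map_inv, hY3 x y]
        group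
      exact (QuotientGroup.eq_one_iff _).1 h1
    · refine zpowers_le.2 ?_
      rw [_root_.commutator_def]
      exact Subgroup.commutator_mem_commutator (Subgroup.mem_top _) (Subgroup.mem_top _)
  rw [hcommN]
  show Nat.card (zpowers w') = p
  rw [Nat.card_zpowers, ← Subgroup.orderOf_coe, hord]

end S1Ctx

/-- The main case. -/
theorem S1Ctx.main {m n p a : ℕ} {H : Hyp G m n} {y₀ : G} (C : S1Ctx H p a y₀) :
    m.Prime ∧ m ∣ n - 1 ∧
      (∃ M : Subgroup G, M.Normal ∧
        (M : Set G) = {x : G | (centralizer ({x} : Set G)).index = 1 ∨ (centralizer ({x} : Set G)).index = m} ∧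
        M.index = m ∧ IsMulCommutative M) ∧
      (∃ N : Subgroup G, N.Normal ∧ (Nat.card N).Coprime m ∧ ∃ a : ℕ, N.index = m ^ a) ∧
      ∀ P : Sylow m G, Nat.card (commutator (P : Subgroup G)) = m := by
  haveI : Fact p.Prime := ⟨C.hp⟩
  have hmp : m = p := C.m_eq_p
  subst hmp
  have hp := C.hp
  refine ⟨hp, C.dvd_sub_one rfl, ⟨cent y₀, C.T_normal, C.T_set, C.hy₀, ⟨⟨?_⟩⟩⟩, ⟨C.Nt, ?_, coprime_card_tors C.hp, ?_⟩, C.card_commutator rfl⟩
  · rintro ⟨x, hx⟩ ⟨z, hz⟩
    exact Subtype.ext (C.hT x hx z hz)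
  · haveI hTn := C.T_normal
    exact ⟨fun w hw c => conj_mem_tors (fun b hb => hTn.conj_mem b hb c) hw⟩
  · obtain ⟨k, hk⟩ := IsPGroup.iff_card.1 C.At_isPGroup
    refine ⟨k + 1, ?_⟩
    have h1 : Nat.card C.At * Nat.card C.Nt = Nat.card (cent y₀) := card_tors_mul C.hp (cent y₀) C.hT
    have h4 : (cent y₀).index = m := C.hy₀
    have h2 : Nat.card (cent y₀) * m = Nat.card G := by
      have := (cent y₀).card_mul_index
      rwa [h4] at this
    have h3 := C.Nt.card_mul_index
    have hpos : 0 < Nat.card C.Nt := Nat.card_pos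
    have h5 : Nat.card C.Nt * C.Nt.index = Nat.card C.Nt * m ^ (k + 1) := by
      calc Nat.card C.Nt * C.Nt.index = Nat.card G := h3
        _ = Nat.card (cent y₀) * m := h2.symm
        _ = (Nat.card C.At * Nat.card C.Nt) * m := by rw [h1]
        _ = m ^ k * Nat.card C.Nt * m := by rw [hk]
        _ = Nat.card C.Nt * m ^ (k + 1) := by ring
    exact Nat.eq_of_mul_eq_mul_left hpos h5

end Cfsg.Agent.Lib.Nilpotent.OneMMN
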